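import Cfsg.Agent.H2.Gd1
import Cfsg.Agent.H7.GdY

/-! Solvable groups with four character degrees: the piece `H2.Gd.PB` (degrees `1, p^e, b, p^e b`). -/

set_option autoImplicit false

namespace H7.GdB

open Subgroup Cfsg H18 H5 H6 H8 H2.Gd
open scoped commutatorElement

universe u

theorem pw {p u v i j : ℕ} (hp : p.Prime) (hu : ¬ p ∣ u) (hv : ¬ p ∣ v) (h : u * p ^ i = v * p ^ j) : p ^ i = p ^ j :=
  Nat.dvd_antisymm (((hp.coprime_iff_not_dvd.2 hv).pow_left i).dvd_of_dvd_mul_left (h ▸ dvd_mul_left _ _))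
    (((hp.coprime_iff_not_dvd.2 hu).pow_left j).dvd_of_dvd_mul_left (h ▸ dvd_mul_left _ _))

theorem sub1 {G : Type*} [Group G] (N : Subgroup G) : ⁅N, N⁆.subgroupOf N = commutator N := by
  rw [← map_subtype_commutator, subgroupOf, comap_map_eq_self_of_injective N.subtype_injective]

theorem sub2 {G : Type*} [Group G] (N : Subgroup G) :
    ⁅⁅N, N⁆, ⁅N, N⁆⁆.subgroupOf N = ⁅commutator N, commutator N⁆ := by
  rw [← map_subtype_commutator N, ← map_commutator, subgroupOf, comap_map_eq_self_of_injective N.subtype_injective]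

theorem pB (hE : Ext.{u}) (hF : PF.{u}) : PB.{u} := by
  intro G _ _ _ p e b hp e0 pb b1 h
  classical
  haveI := Fact.mk hp
  haveI := Fintype.ofFinite G
  set N := pResidual p G with hN
  haveI := Fintype.ofFinite N
  obtain ⟨k, hk⟩ : ∃ k, N.index = p ^ k := H3.exists_index_pResidual
  have nb : ∀ {j : ℕ}, ¬ b ∣ p ^ j := fun d =>
    b1 (Nat.eq_one_of_dvd_coprimes ((hp.coprime_iff_not_dvd.2 pb).pow_left _) d dvd_rfl)
  have pp : ∀ χ, IsIrrCharacter G χ → ∀ j, charDegree χ ∣ p ^ j → charDegree χ = 1 ∨ charDegree χ = p ^ e :=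
    fun χ hχ j d => by
      rcases h χ hχ with z | z | z | z
      · exact Or.inl z
      · exact Or.inr z
      · exact absurd (z ▸ d) nb
      · exact absurd ((dvd_mul_left _ _).trans (z ▸ d)) nb
  have pN : ¬ p ∣ (commutator N).index := fun d => by
    haveI := Fintype.ofFinite (Abelianization N)
    obtain ⟨x, hx⟩ := exists_prime_orderOf_dvd_card' (G := Abelianization N) p d
    obtain ⟨g, rfl⟩ : ∃ g, Abelianization.of g = x := QuotientGroup.mk_surjective x
    have := H3.coprime_orderOf_map_of_mem_pResidual (p := p) Abelianization.of (H3.pResidual_pResidual.ge (mem_top g))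
    rw [hx, Nat.coprime_self] at this
    exact hp.ne_one this
  have g2 : ⁅commutator G, commutator G⁆ ≤ ⁅N, N⁆ :=
    der2_mod fun χ hχ l => pp χ hχ k (hk ▸ deg_dvd_index_of_comm hχ N l)
  have f := hF N p b hp pN fun θ hθ d => by
    obtain ⟨χ, h2, h3, -⟩ := deg_eq_ordCompl hp hk hθ d
    have o1 : ordCompl[p] b = b := (Nat.ordCompl_eq_self_iff_zero_or_not_dvd b hp).2 (Or.inr pb)
    rcases h χ h2 with z | z | z | z <;> 
      simp only [h3, z, o1, Nat.ordCompl_mul, Nat.ordCompl_self_pow hp] <;> simp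
  have f2 : ∀ χ, IsIrrCharacter G χ → ¬ ⁅⁅N, N⁆, ⁅N, N⁆⁆ ≤ charKer χ →
      charDegree χ = p ^ e ∨ charDegree χ = p ^ e * b := fun χ hχ l => by
    obtain ⟨θ, hθ, o⟩ := exists_irr_under (N := N) hχ
    obtain ⟨c, -, hc⟩ := deg_dvd_of_under hχ hθ o
    have : p ∣ charDegree χ := by_contra fun d => l (le_ker_of_constituent (der_le.trans der_le) hχ hθ.isCharacter o
      ((sub2 N).le.trans (f θ hθ fun z => d (hc ▸ z.mul_left _))))
    rcases h χ hχ with z | z | z | z
    · exact absurd (Nat.dvd_one.1 (z ▸ this)) hp.ne_one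
    · exact Or.inl z
    · exact absurd (z ▸ this) pb
    · exact Or.inr z
  change ⁅⁅⁅commutator G, commutator G⁆, ⁅commutator G, commutator G⁆⁆,
    ⁅⁅commutator G, commutator G⁆, ⁅commutator G, commutator G⁆⁆⁆ = ⊥
  by_cases c : ∀ χ, IsIrrCharacter G χ → charDegree χ = p ^ e → ⁅N, N⁆ ≤ charKer χ
  · exact le_bot_iff.1 ((der_mono (der_mono g2)).trans (comm_of_rel G ⁅⁅N, N⁆, ⁅N, N⁆⁆ (p ^ e * b) inferInstance
      fun χ hχ l => (f2 χ hχ l).resolve_left fun z => l (der_le.trans (c χ hχ z))).le)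
  push Not at c
  obtain ⟨χ, hχ, dχ, l⟩ := c
  obtain ⟨θ, hθ, o⟩ := exists_irr_under (N := N) hχ
  have θ1 : charDegree θ ≠ 1 := (not_le_ker_iff hθ).1 fun z =>
    l (le_ker_of_constituent der_le hχ hθ.isCharacter o ((sub1 N).le.trans z))
  obtain ⟨j, -, hj⟩ : ∃ j ≤ e, charDegree θ = p ^ j := by
    obtain ⟨c, -, hc⟩ := deg_dvd_of_under hχ hθ o
    exact (Nat.dvd_prime_pow hp).1 (dχ ▸ hc ▸ dvd_mul_left _ _)
  have hom : ∀ lam : N →* ℂˣ, ∀ y, lam y ^ (commutator N).index = 1 := fun lam =>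
    pow_index_eq_one_of_trivial _ lam fun n => Abelianization.commutator_subset_ker lam n.2
  have inv : ∀ lam : N →* ℂˣ, (inertia fun y => (lam y : ℂ)) = ⊤ := fun lam => by
    obtain ⟨m, hm⟩ := exists_pow_eq_self_of_coprime (x := lam * (detHom θ)⁻¹) (n := p ^ j)
      (((hp.coprime_iff_not_dvd.2 pN).pow_left j).coprime_dvd_right
        (orderOf_dvd_of_pow_eq_one (MonoidHom.ext fun y => hom _ y)))
    have hφ := hθ.mul_hom ((lam * (detHom θ)⁻¹) ^ m)
    have ed : detHom (θ * fun g => ((((lam * (detHom θ)⁻¹) ^ m) g : ℂˣ) : ℂ)) ^ 1 = lam := by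
      refine MonoidHom.ext fun y => Units.ext ?_
      rw [pow_one, coe_detHom, mul_comm θ, detChar_hom_mul _ hθ.isCharacter hθ.coe_charDegree.symm, hj,
        ← Units.val_pow_eq_pow_val, ← MonoidHom.pow_apply, ← pow_mul, mul_comm m, pow_mul, hm, ← coe_detHom,
        ← Units.val_mul]
      simp
    have le := H7.GdY.inertia_det hφ.isCharacter 1
    rw [ed] at le
    obtain ⟨χ', h1, o'⟩ := exists_irr_over (G := G) hφ
    obtain ⟨c, c1, c2⟩ := deg_dvd_of_under h1 hφ o'
    have dv := index_inertia_mul_dvd h1 hφ o'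
    rw [charDegree_mul_hom, hj] at c2 dv
    have d1 : charDegree χ' = p ^ e := (pp χ' h1 (k + j) (by
      rw [c2, pow_add]; exact Nat.mul_dvd_mul_right (hk ▸ c1) _)).resolve_left fun z =>
        θ1 (hj ▸ Nat.eq_one_of_mul_eq_one_left (c2 ▸ z))
    have d2 : (inertia fun y => (lam y : ℂ)).index * p ^ j ∣ p ^ e :=
      d1 ▸ (Nat.mul_dvd_mul_right (index_dvd_of_le le) _).trans dv
    obtain ⟨ξ, hξ, -, dξ⟩ := hE G N lam _ (hk ▸ ((hp.coprime_iff_not_dvd.2 pN).pow_left k).symm) (hom lam)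
    rw [← index_eq_one, ← dξ]
    refine (pp ξ hξ e (dξ ▸ (dvd_mul_right _ _).trans d2)).resolve_right fun z => θ1 ?_
    rw [← dξ, z] at d2
    exact hj ▸ Nat.dvd_one.1 (Nat.dvd_of_mul_dvd_mul_left (pow_pos hp.pos e) (by simpa using d2))
  have NG : ⁅N, ⊤⁆ ≤ ⁅N, N⁆ := fun z hz => by
    have zN := commutator_le_left N ⊤ hz
    by_contra k
    obtain ⟨lam, -, l2⟩ := exists_lin_ne_one (N := commutator N) le_rfl (g := ⟨z, zN⟩) fun w => k ((sub1 N).ge w)
    obtain ⟨y, hy, rfl⟩ := comm_le_ker_of_inertia lam (inv lam).ge hz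
    exact l2 hy
  obtain ⟨P⟩ : Nonempty (Sylow p G) := inferInstance
  set D := ⁅N, N⁆ with hD
  have NP : N ⊔ (P : Subgroup G) = ⊤ := H3.pResidual_sup_sylow P
  have n1 : N ≤ N(D ⊔ (P : Subgroup G)) := norm_of_comm_le (((comm_mono le_rfl le_top).trans NG).trans le_sup_left)
  have n2 : (P : Subgroup G) ≤ N(D ⊔ (P : Subgroup G)) := le_norm le_sup_right
  haveI nM : (D ⊔ (P : Subgroup G)).Normal := norm_top_iff.1 (NP.ge.trans (sup_le n1 n2))
  have GM : commutator G ≤ D ⊔ (P : Subgroup G) := (comm_mono NP.ge le_rfl).trans (comm_sup_le (NG.trans le_sup_left)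
    ((comm_mono le_sup_right le_rfl).trans (commutator_le_left _ _)) n1 n2)
  have th : ¬ p ∣ Nat.card (pResidual p D) := thompson_cd fun φ hφ φ1 => by_contra fun d => by
    obtain ⟨τ, c, t1, t2, t3, t4⟩ := exists_deg_over (isIrr_sOf (der_le : D ≤ N) hφ)
    have ee : charDegree (sOf φ N) = charDegree φ := charDegree_congr rfl
    rw [sub1] at t2
    have := f τ t1 fun z => by
      rw [t3, ee, hp.dvd_mul] at z
      exact z.elim (fun z => pN (z.trans t2)) d
    refine (not_le_ker_iff (isIrr_sOf (der_le : D ≤ N) hφ)).2 (ee ▸ φ1) fun x hx => t4 (this ?_)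
    rw [← sub1]
    exact (map_subtype_commutator _).le (mem_map_of_mem _ hx)
  set B := (pResidual p D).map D.subtype with hB
  haveI := Fintype.ofFinite B
  have BD : B ≤ D := map_subtype_le _
  obtain ⟨i, hi⟩ : ∃ i, B.relIndex (D ⊔ (P : Subgroup G)) ∣ p ^ i := by
    obtain ⟨i, hi⟩ := H3.exists_index_pResidual (p := p) (G := D)
    obtain ⟨i', hi'⟩ := IsPGroup.iff_card.1 P.isPGroup'
    refine ⟨i + i', ?_⟩
    rw [← relIndex_mul_relIndex B D _ BD le_sup_left, relIndex_sup_left, pow_add, relIndex, hB, subgroupOf,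
      comap_map_eq_self_of_injective D.subtype_injective, hi, ← hi']
    exact Nat.mul_dvd_mul_left _ (relIndex_dvd_card _ _)
  have m2 := der2_mod (G := ↥(D ⊔ (P : Subgroup G))) (K := ⁅B, B⁆.subgroupOf _) (a := p ^ e) fun ψ hψ l => by
    obtain ⟨t, -, ht⟩ := (Nat.dvd_prime_pow hp).1 ((deg_dvd_index_of_comm hψ (B.subgroupOf _)
      ((comm_subgroupOf_le B B _).trans l)).trans hi)
    obtain ⟨ξ, c, t1, t2, t3, -⟩ := exists_deg_over hψ
    have pc : ¬ p ∣ c := fun z => P.not_dvd_index ((z.trans t2).trans (index_dvd_of_le le_sup_right))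
    rw [ht] at t3 ⊢
    rcases h ξ t1 with z | z | z | z
    · exact Or.inl (pw hp pc hp.not_dvd_one (j := 0) (by rw [← t3, z]; simp))
    · exact Or.inr (pw hp pc hp.not_dvd_one (by rw [← t3, z, one_mul]))
    · exact Or.inl (pw hp pc pb (j := 0) (by rw [← t3, z]; simp))
    · exact Or.inr (pw hp pc pb (by rw [← t3, z, mul_comm]))
  have m3 := map_le_iff_le_comap.2 m2
  rw [map_commutator, map_subtype_commutator] at m3
  refine le_bot_iff.1 ((der_mono ((der_mono (der_mono GM)).trans m3)).trans (comm_of_rel G ⁅B, B⁆ (p ^ e * b)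
    inferInstance fun ξ hξ l => (f2 ξ hξ fun z => l ((der_mono BD).trans z)).resolve_left fun z => l ?_).le)
  obtain ⟨τ, hτ, o⟩ := exists_irr_under (N := B) hξ
  obtain ⟨c, -, hc⟩ := deg_dvd_of_under hξ hτ o
  refine le_ker_of_constituent der_le hξ hτ.isCharacter o ((sub1 B).le.trans (by_contra fun w =>
    (not_le_ker_iff hτ).1 w (Nat.eq_one_of_dvd_coprimes ((hp.coprime_iff_not_dvd.2 th).pow_left e)
      (z ▸ hc ▸ dvd_mul_left _ _) ?_)))
  rw [← card_map_of_injective D.subtype_injective]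
  exact hτ.charDegree_dvd_card

end H7.GdB
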