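import Cfsg.Agent.H15.Kl0
import Cfsg.Agent.H1.BG3a
import Cfsg.Agent.H1.Fitting
import Cfsg.Agent.S0205

set_option autoImplicit false
namespace H7.KlO
open Subgroup Cfsg
universe u

theorem cyc {E A : Type*} [Group E] [Finite E] [CommGroup A] [Finite A] [Nontrivial A]
    (a : E →* MulAut A) {q : ℕ} (hq : q.Prime) (hE : IsPGroup q E) (ho : Odd (Nat.card E))
    (h : ∀ g, g ≠ 1 → ∀ u, a g u = u → u = 1) : IsCyclic E := by
  haveI : Finite (A ⋊[a] E) := Finite.of_equiv _ SemidirectProduct.equivProd.symm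
  haveI : (SemidirectProduct.inl : A →* A ⋊[a] E).range.Normal := by
    rw [SemidirectProduct.range_inl_eq_ker_rightHom]; infer_instance
  let e := MonoidHom.ofInjective (SemidirectProduct.inr_injective (φ := a))
  have := H1.odd_regular_pgroup_cyclic (G := A ⋊[a] E) (R := SemidirectProduct.inr.range)
    (H := SemidirectProduct.inl.range) hq (H18.piGrp_of_isPGroup hq (hE.of_equiv e))
    (by rw [← Nat.card_congr e.toEquiv]; exact ho)
    (by rw [Subgroup.normalizer_eq_top]; exact le_top) (fun e => by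
      obtain ⟨u, hu⟩ := exists_ne (1 : A)
      exact hu (SemidirectProduct.inl_injective ((Subgroup.mem_bot.1 (e.le ⟨u, rfl⟩)).trans
        (map_one _).symm)))
    (by
      rintro _ ⟨g, rfl⟩ hg
      refine eq_bot_iff.2 ?_
      rintro _ ⟨⟨u, rfl⟩, hu⟩
      have h1 := congrArg SemidirectProduct.left (Subgroup.mem_centralizer_singleton_iff.1 hu)
      rw [h g (fun e => hg (by simp [e])) u (by simpa using h1.symm), map_one]
      exact one_mem _)
  exact isCyclic_of_surjective e.symm (MulEquiv.surjective _)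

theorem core {G V : Type*} [Group G] [Finite G] [CommGroup V] [Finite V] [Nontrivial V]
    (ρ : G →* MulAut V) (p : ℕ) [hp : Fact p.Prime] (hV : IsPGroup p V) (ho : Odd (Nat.card G))
    (hf : ∀ g, g ≠ 1 → ¬ p ∣ orderOf g → ∀ v, ρ g v = v → v = 1)
    (hn : ∀ y, y ^ p = 1 → y ≠ 1 → ∀ v, ∏ i ∈ Finset.range p, ρ (y ^ i) v = 1)
    (hK : ∀ K : Subgroup G, K.Normal → IsPGroup p K → K = ⊥) : ¬ p ∣ Nat.card G := by
  classical
  intro hd
  obtain ⟨y, hy⟩ := exists_prime_orderOf_dvd_card' p hd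
  have hy1 : y ≠ 1 := by rintro rfl; rw [orderOf_one] at hy; exact hp.out.one_lt.ne hy
  have hyp : y ^ p = 1 := hy ▸ pow_orderOf_eq_one y
  haveI := Cfsg.Agent.S0205.result ho
  have hP : pCore p G = ⊥ := hK _ inferInstance (H1.pCore_isPGroup p G)
  obtain ⟨q, hq, hQ⟩ : ∃ q : ℕ, q.Prime ∧ ¬ pCore q G ≤ centralizer {y} := by
    by_contra hc
    push Not at hc
    have h1 : fittingSubgroup G ≤ centralizer {y} :=
      H1.fitting_le_of_pCore_le fun q hq => hc q hq.out
    have h2 : y ∈ fittingSubgroup G := H1.centralizer_fitting_le G (by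
      rw [mem_centralizer_iff]
      intro g hg
      exact mem_centralizer_singleton_iff.1 (h1 hg))
    have h3 : IsPGroup p (zpowers y) := IsPGroup.of_card (n := 1) (by rw [Nat.card_zpowers, hy, pow_one])
    have h4 := H1.le_pCore_of_le_fitting h3 (zpowers_le.2 h2)
    rw [hP] at h4
    exact hy1 (mem_bot.1 (h4 (mem_zpowers y)))
  haveI := Fact.mk hq
  have hqp : q ≠ p := by
    rintro rfl
    exact hQ (by rw [hP]; exact bot_le)
  set Q := pCore q G with hQd
  have hQq : IsPGroup q Q := H1.pCore_isPGroup q G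
  obtain ⟨k, hk⟩ := hQq.exists_card_eq
  have hcop : ¬ p ∣ Nat.card Q := fun h => by
    rw [hk] at h
    exact hqp ((Nat.prime_dvd_prime_iff_eq hp.out hq).1 (hp.out.dvd_of_dvd_pow h)).symm
  have hfQ : ∀ b ∈ Q, b ≠ 1 → ∀ v, ρ b v = v → v = 1 := fun b hb h1 =>
    hf b h1 fun h => hcop (h.trans (Q.orderOf_dvd_natCard hb))
  haveI : IsCyclic Q := cyc (ρ.comp Q.subtype) hq hQq (ho.of_dvd_nat Q.card_subgroup_dvd_card)
    fun g hg => hfQ g g.2 fun e => hg (Subtype.ext e)
  have hc : ∀ a ∈ Q, ∀ b ∈ Q, a * b = b * a := fun a ha b hb =>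
    congrArg Subtype.val ((IsCyclic.commutative (α := Q)).is_comm.comm (⟨a, ha⟩ : Q) ⟨b, hb⟩)
  obtain ⟨a0, ha0, hna⟩ := SetLike.not_le_iff_exists.1 hQ
  haveI := Fintype.ofFinite Q
  obtain ⟨v, hv⟩ := exists_ne (1 : V)
  have key : ∀ i ∈ Finset.range p, i ≠ 0 → ∏ a : Q, ρ ((a : G) * y ^ i * (a : G)⁻¹) v = 1 := by
    intro i hi h0
    have hi' : i.Coprime (orderOf y) := by
      rw [hy]
      exact (Nat.coprime_of_lt_prime h0 (Finset.mem_range.1 hi) hp.out).symm
    have hb : a0 * y ^ i * a0⁻¹ * (y ^ i)⁻¹ ∈ Q := by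
      have := (inferInstance : Q.Normal).conj_mem _ (inv_mem ha0) (y ^ i)
      simpa only [mul_assoc] using mul_mem ha0 this
    refine hfQ _ hb (fun e => hna ?_) _ ?_
    · have e' : Commute a0 (y ^ i) := by
        rw [mul_inv_eq_one, mul_inv_eq_iff_eq_mul] at e; exact e
      obtain ⟨m, hm⟩ := exists_pow_eq_self_of_coprime hi'
      rw [mem_centralizer_singleton_iff, ← hm]
      exact (e'.pow_right m).eq
    · rw [map_prod]
      refine Fintype.prod_equiv (Equiv.mulLeft (⟨a0, ha0⟩ : Q)) _ _ fun a => ?_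
      rw [← MulAut.mul_apply, ← map_mul]
      congr 2
      have ha : (a : G) * y ^ i * (a : G)⁻¹ * (y ^ i)⁻¹ ∈ Q := by
        have := (inferInstance : Q.Normal).conj_mem _ (inv_mem a.2) (y ^ i)
        simpa only [mul_assoc] using mul_mem a.2 this
      have c1 := hc _ ha _ ha0
      have c2 := hc _ ha _ hb
      simp only [Equiv.coe_mulLeft, coe_mul]
      generalize y ^ i = z at *
      calc a0 * z * a0⁻¹ * z⁻¹ * ((a : G) * z * (a : G)⁻¹)
          = (a0 * z * a0⁻¹ * z⁻¹ * ((a : G) * z * (a : G)⁻¹ * z⁻¹)) * z := by group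
        _ = (((a : G) * z * (a : G)⁻¹ * z⁻¹) * a0) * z * a0⁻¹ := by rw [← c2]; group
        _ = _ := by rw [c1]; group
  have h1 : ∏ a : Q, ∏ i ∈ Finset.range p, ρ ((a : G) * y ^ i * (a : G)⁻¹) v = 1 := by
    refine Finset.prod_eq_one fun a _ => ?_
    have := hn ((a : G) * y * (a : G)⁻¹) (by rw [conj_pow, hyp]; simp) (by simpa using hy1) v
    simpa only [conj_pow] using this
  rw [Finset.prod_comm, Finset.prod_eq_single 0 key (fun h => absurd (Finset.mem_range.2 hp.out.pos) h)] at h1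
  simp only [pow_zero, mul_one, mul_inv_cancel, map_one, MulAut.one_apply, Finset.prod_const,
    Finset.card_univ, Fintype.card_eq_nat_card] at h1
  obtain ⟨m, hm⟩ := hV v
  have h2 : orderOf v ∣ Nat.gcd (Nat.card Q) (p ^ m) :=
    Nat.dvd_gcd (orderOf_dvd_of_pow_eq_one h1) (orderOf_dvd_of_pow_eq_one hm)
  rw [(((Nat.Prime.coprime_iff_not_dvd hp.out).2 hcop).symm.pow_right m), Nat.dvd_one,
    orderOf_eq_one_iff] at h2
  exact hv h2

theorem pO : H15.Kl.PO.{u} := by
  intro V _ _ _ p _ Y hV ho hf hn hK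
  refine core Y.subtype p hV ho (fun g h1 h2 => hf g g.2 (fun e => h1 (Subtype.ext e))
    (by rwa [orderOf_coe])) (fun y h1 h2 v => ?_) hK
  have := hn y y.2 (by exact_mod_cast congrArg Subtype.val h1) (fun e => h2 (Subtype.ext e)) v
  simpa using this

end H7.KlO
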