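import Cfsg.Agent.H2.Nd0b

/-! The piece `H2.Nd.PT`: characters of `C` not containing `Y` in the kernel are fixed by an element of `N \ C`
centralizing `Y`. -/

set_option autoImplicit false

namespace H7.NdT

open Subgroup Cfsg H18 H5 H6 H8 H2.Nd
open scoped commutatorElement

universe u

theorem pT : PT.{u} := by
  intro G _ _ N Y C Q B c q r nC h θ hθ hY
  classical
  haveI := Fintype.ofFinite G
  haveI := Fintype.ofFinite C
  haveI := h.nN
  haveI := h.nY
  have hd : Y.subgroupOf C = commutator C := by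
    rw [← h.CC, ← map_subtype_commutator, subgroupOf, comap_map_eq_self_of_injective C.subtype_injective]
  have YC : Y ≤ C := by rw [← h.CC]; exact commutator_le_left C C
  obtain ⟨t, tN, tC, ti⟩ : ∃ t ∈ N, t ∉ C ∧ t ∈ inertia θ := by
    by_contra k
    push Not at k
    have e : N ⊓ inertia θ = C :=
      le_antisymm (fun x hx => by_contra fun n => k x hx.1 n hx.2) (le_inf h.CN (le_inertia hθ.isClassFunction))
    obtain ⟨b, hb⟩ : N.relIndex (inertia θ) ∣ N.index := relIndex_dvd_index_of_normal N _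
    have e1 := relIndex_mul_index h.CN
    have e2 := relIndex_mul_index (le_inertia hθ.isClassFunction)
    have e3 : C.relIndex (inertia θ) = N.relIndex (inertia θ) := by
      rw [← inf_relIndex_right N, e]
    have a0 : N.relIndex (inertia θ) ≠ 0 := index_ne_zero_of_finite
    have e4 : (inertia θ).index = C.relIndex N * b := by
      refine Nat.eq_of_mul_eq_mul_left (Nat.pos_of_ne_zero a0) ?_
      rw [← e3, e2, ← e1, hb, e3]; ring
    obtain ⟨χ, hχ, o⟩ := exists_irr_over (G := G) hθ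
    have dv := index_inertia_mul_dvd hχ hθ o
    obtain ⟨χ0, h0, d0⟩ := h.d0
    have d1 : C.relIndex N ≠ 1 := fun e => by
      obtain ⟨x, xN, hx⟩ := h.x1
      have xC := relIndex_eq_one.1 e xN
      exact hx (by
        rw [commutatorElement_def, mul_assoc, mul_assoc, ← mul_assoc c]
        simpa using C.mul_mem xC (nC.conj_mem _ (C.inv_mem xC) c))
    have e5 := h.nd χ0 χ h0 hχ (d0 ▸ d1) (by
      rw [d0]; exact ((e4 ▸ dvd_mul_right _ _ : C.relIndex N ∣ (inertia θ).index).mul_right _).trans dv)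
    rw [← e5, d0, e4, mul_assoc] at dv
    have d2 : C.relIndex N ≠ 0 := index_ne_zero_of_finite
    have : b * charDegree θ ∣ 1 := Nat.dvd_of_mul_dvd_mul_left (Nat.pos_of_ne_zero d2) (by simpa using dv)
    exact (not_le_ker_iff hθ).1 (hd ▸ hY) (Nat.eq_one_of_mul_eq_one_left (Nat.dvd_one.1 this))
  refine ⟨t, tN, tC, by_contra fun tY => hY ?_, mem_inertia'.1 ti⟩
  have cm : ∀ z ∈ Y, ⁅t, z⁆ ∈ Y := fun z hz => by
    rw [commutatorElement_def]; exact Y.mul_mem (h.nY.conj_mem z hz t) (Y.inv_mem hz)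
  have ker : ∀ z (hz : z ∈ Y), (⟨⁅t, z⁆, YC (cm z hz)⟩ : C) ∈ charKer θ := fun z hz => by
    have zc : (⟨z, YC hz⟩ : C)⁻¹ ∈ center C := inv_mem (mem_center_iff.2 fun g =>
      Subtype.ext (mem_centralizer_iff.1 (h.CY g.2) z hz).symm)
    obtain ⟨a, -, ha⟩ := hθ.center_le_charCenter zc
    rw [hθ.mem_charKer]
    have e1 := mem_inertia'.1 ti ⟨z, YC hz⟩
    have e2 : (⟨⁅t, z⁆, YC (cm z hz)⟩ : C) =
        (⟨z, YC hz⟩ : C)⁻¹ * ⟨t * z * t⁻¹, nC.conj_mem z (YC hz) t⟩ := by
      rw [← mem_center_iff.1 zc]; exact Subtype.ext (commutatorElement_def _ _)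
    rw [e2, ha, e1, ← ha, inv_mul_cancel]
  let f : Y → Y := fun z => ⟨⁅t, z.1⁆, cm z z.2⟩
  have inj : Function.Injective f := fun z w e => by
    have e' : ⁅t, z.1⁆ = ⁅t, w.1⁆ := congrArg Subtype.val e
    by_contra ne
    refine tY (h.sry t tN (w⁻¹ * z).1 (w⁻¹ * z).2 (fun k => ne ?_) ?_)
    · exact (inv_mul_eq_one.1 (Subtype.ext k : w⁻¹ * z = 1)).symm
    · have : t * (w.1⁻¹ * z.1) * t⁻¹ = w.1⁻¹ * ⁅t, w.1⁆⁻¹ * ⁅t, z.1⁆ * z.1 := by
        simp only [commutatorElement_def]; group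
      rw [e', inv_mul_cancel_right] at this
      exact mul_inv_eq_iff_eq_mul.1 this
  intro y hy
  obtain ⟨z, hz⟩ := Finite.surjective_of_injective inj ⟨y.1, hy⟩
  have := ker z z.2
  have e : (⟨⁅t, z.1⁆, YC (cm z z.2)⟩ : C) = y := Subtype.ext (congrArg (Subtype.val : Y → G) hz)
  rwa [e] at this

end H7.NdT
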