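import Cfsg.Agent.H7.ND
import Cfsg.Agent.H8.Pairs4

/-! Idempotents of `End_Γ(kX)` for a `p`-group `Γ` (summands of permutation modules):
`exists_fit` (Fitting idempotent), `loc_sum` (primitive corners are local), `EI`, `BZ` (vanishing
Brauer quotient), `exists_orbit`; application `nil_of_min_dim` (a block algebra of dimension
`p^(2a-d)` is nilpotent). -/

set_option autoImplicit false
open Cfsg H5 H8 MonoidAlgebra

namespace H7

section loc
variable (k : Type*) {A : Type*} [Field k] [Ring A] [Algebra k A] [FiniteDimensional k A]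
include k

theorem exists_fit (a : A) : ∃ (n : ℕ) (c : A), IsIdempotentElem (c * a) ∧ Commute a c ∧
    a ^ n * (c * a) = a ^ n := by
  open Polynomial in
  obtain ⟨q, hq, hn⟩ := exists_eq_pow_rootMultiplicity_mul_and_not_dvd (minpoly k a)
    (minpoly.ne_zero (Algebra.IsIntegral.isIntegral a)) 0
  set n := rootMultiplicity 0 (minpoly k a)
  rw [C_0, sub_zero] at hq hn
  rw [X_dvd_iff] at hn
  have h1 := minpoly.aeval k a
  rw [hq, ← X_mul_divX_add q] at h1
  simp only [map_mul, map_pow, aeval_X, map_add, aeval_C] at h1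
  set b : A := aeval a (-C (q.coeff 0)⁻¹ * q.divX) with hb
  have hc : Commute a b := by
    have : Commute (aeval a (X : k[X])) b := (Commute.all _ _).map (aeval a)
    rwa [aeval_X] at this
  have h2 : a ^ n * (a * b) = a ^ n := by
    have h3 : a ^ n * (a * aeval a q.divX) = -(q.coeff 0 • a ^ n) := by
      rw [eq_neg_iff_add_eq_zero, ← h1, mul_add, ← Algebra.commutes, Algebra.smul_def]
    rw [hb, map_mul, map_neg, aeval_C, neg_mul, ← Algebra.smul_def, mul_neg, mul_neg,
      mul_smul_comm, mul_smul_comm, h3, smul_neg, neg_neg, smul_smul, inv_mul_cancel₀ hn, one_smul]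
  have h4 : ∀ m, a ^ n * (a * b) ^ m = a ^ n := fun m => by
    induction m with
    | zero => simp
    | succ m ih => rw [pow_succ, ← mul_assoc, ih, h2]
  have h5 : b ^ (n + 1) * a ^ n * a = (a * b) ^ (n + 1) := by
    rw [hc.mul_pow, mul_assoc, ← pow_succ, (hc.pow_pow _ _).eq]
  refine ⟨n, b ^ (n + 1) * a ^ n, ?_, (hc.pow_right _).mul_right (Commute.self_pow a n),
    by rw [h5, h4]⟩
  rw [IsIdempotentElem]
  conv_lhs => rw [h5]; lhs; rw [← h5]
  rw [mul_assoc, mul_assoc, (((Commute.refl a).mul_right hc).pow_right _).eq,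
    ← mul_assoc (a ^ n), h4, mul_assoc]

theorem nil_or_unit {f : A} (hm : ∀ i, IsIdempotentElem i → f * i = i → i * f = i → i = 0 ∨ i = f)
    {a : A} (h1 : f * a = a) (h2 : a * f = a) : IsNilpotent a ∨ ∃ c, c * a = f := by
  obtain ⟨n, c, hi, hc, h⟩ := exists_fit k a
  rcases hm _ hi (by rw [← hc.eq, ← mul_assoc, h1]) (by rw [mul_assoc, h2]) with h0 | h0
  · exact Or.inl ⟨n, by rw [← h, h0, mul_zero]⟩
  · exact Or.inr ⟨c, h0⟩

theorem loc_sum {f : A} (hf : IsIdempotentElem f) (h0 : f ≠ 0)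
    (hm : ∀ i, IsIdempotentElem i → f * i = i → i * f = i → i = 0 ∨ i = f) {ι : Type*}
    (s : Finset ι) (a : ι → A) (h : ∃ c, c * (f * (∑ i ∈ s, a i) * f) = f) :
    ∃ i ∈ s, ∃ c, c * (f * a i * f) = f := by
  classical
  induction s using Finset.induction_on with
  | empty => obtain ⟨c, hc⟩ := h; simp at hc; exact absurd hc.symm h0
  | insert j s hj ih =>
    by_cases h1 : ∃ c, c * (f * (∑ i ∈ s, a i) * f) = f
    · obtain ⟨i, hi, h2⟩ := ih h1
      exact ⟨i, Finset.mem_insert_of_mem hi, h2⟩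
    · obtain ⟨c, hc⟩ := h
      rw [Finset.sum_insert hj, mul_add, add_mul, mul_add] at hc
      set w := f * (∑ i ∈ s, a i) * f with hw
      have h3 : w * f = w := by rw [hw, mul_assoc, hf.eq]
      rcases nil_or_unit k hm (a := f * c * w) (by rw [← mul_assoc f (f * c), ← mul_assoc f, hf.eq])
        (by rw [mul_assoc, h3]) with h4 | ⟨d, hd⟩
      · obtain ⟨u, hu⟩ := h4.isUnit_one_sub
        refine ⟨j, Finset.mem_insert_self _ _, (u⁻¹ : Aˣ) * (f * c), ?_⟩
        have h5 : f * c * (f * a j * f) = u * f := by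
          rw [hu, sub_mul, one_mul, mul_assoc _ w, h3, eq_sub_iff_add_eq, mul_assoc, mul_assoc f c,
            ← mul_add, hc, hf.eq]
        rw [mul_assoc, h5, Units.inv_mul_cancel_left]
      · exact absurd ⟨d * (f * c), by rw [mul_assoc, hd]⟩ h1

end loc

section perm
variable {k : Type*} [Field k] {Γ X : Type*} [Group Γ] [Fintype X] [DecidableEq X] [MulAction Γ X]

variable (k Γ X) in
/-- `Γ`-invariant matrices. -/
def EI : Subalgebra k (Matrix X X k) where
  carrier := {a | ∀ (γ : Γ) x y, a (γ • x) (γ • y) = a x y}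
  mul_mem' := fun {a b} ha hb γ x y => by
    simp only [Matrix.mul_apply]
    rw [← Equiv.sum_comp (MulAction.toPerm γ)]
    exact Finset.sum_congr rfl fun z _ => by rw [MulAction.toPerm_apply, ha, hb]
  add_mem' := fun {a b} ha hb γ x y => by simp only [Matrix.add_apply, ha γ, hb γ]
  algebraMap_mem' := fun c γ x y => by
    simp [Matrix.algebraMap_matrix_apply]

/-- The Brauer quotient at `R` vanishes. -/
def BZ (R : Subgroup Γ) (a : Matrix X X k) : Prop :=
  ∀ x y, R ≤ MulAction.stabilizer Γ x → R ≤ MulAction.stabilizer Γ y → a x y = 0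

variable {p : ℕ} [hp : Fact p.Prime] [CharP k p]

theorem BZ.mul (hΓ : IsPGroup p Γ) {R : Subgroup Γ} {a b : Matrix X X k} (ha : a ∈ EI k Γ X)
    (hb : b ∈ EI k Γ X) (h : BZ R a ∨ BZ R b) : BZ R (a * b) := by
  intro x y hx hy
  rw [Matrix.mul_apply]
  refine sum_eq_zero_of_pgroup (CharP.cast_eq_zero k p) (hΓ.to_subgroup R) _ (fun u z => ?_)
    fun z hz => ?_
  · have h1 := ha u x z
    have h2 := hb u z y
    rw [show (u : Γ) • x = x from hx u.2] at h1
    rw [show (u : Γ) • y = y from hy u.2] at h2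
    exact congrArg₂ _ h1 h2
  · have h3 : R ≤ MulAction.stabilizer Γ z := fun u hu => hz ⟨u, hu⟩
    rcases h with h | h
    · rw [h x z hx h3, zero_mul]
    · rw [h z y h3 hy, mul_zero]

open Classical in
variable (k Γ) in
/-- Projection on an orbit. -/
noncomputable def dO (t : X) : Matrix X X k :=
  Matrix.diagonal fun x => if x ∈ MulAction.orbit Γ t then 1 else 0

omit [Fintype X] in
theorem smul_mem_orbit_iff' (γ : Γ) (t x : X) :
    γ • x ∈ MulAction.orbit Γ t ↔ x ∈ MulAction.orbit Γ t := by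
  rw [← MulAction.orbit_eq_iff, ← MulAction.orbit_eq_iff, MulAction.orbit_smul]

theorem dO_mem (t : X) : dO k Γ t ∈ EI k Γ X := fun γ x y => by
  classical
  simp only [dO, Matrix.diagonal_apply, smul_left_cancel_iff]
  exact if_congr Iff.rfl (if_congr (smul_mem_orbit_iff' γ t x) rfl rfl) rfl

theorem dO_idem (t : X) : IsIdempotentElem (dO k Γ t) := by
  rw [IsIdempotentElem, dO, Matrix.diagonal_mul_diagonal]
  congr 1; ext x; split_ifs <;> simp

theorem rank_dO (t : X) : (dO k Γ t).rank = (MulAction.stabilizer Γ t).index := by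
  classical
  rw [dO, Matrix.rank_diagonal, MulAction.index_stabilizer, ← Nat.card_coe_set_eq,
    ← Nat.card_eq_fintype_card]
  exact Nat.card_congr (Equiv.subtypeEquivRight fun x => by simp)

theorem mulVec_ind [Finite Γ] (hΓ : IsPGroup p Γ) {t : X} {h : Matrix X X k} (hE : h ∈ EI k Γ X)
    (hi : IsIdempotentElem h) (h0 : h ≠ 0) (hd : dO k Γ t * h = h) :
    h.mulVec ((dO k Γ t).diag) = (dO k Γ t).diag := by
  classical
  let V : Submodule k (X → k) := LinearMap.ker (h.mulVecLin - LinearMap.id)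
  have hV : ∀ v, v ∈ V ↔ h.mulVec v = v := fun v => by simp [V, sub_eq_zero]
  letI : DistribMulAction Γ V :=
    { smul := fun γ v => ⟨fun x => v.1 (γ⁻¹ • x), (hV _).2 (funext fun x => by
        rw [← congrFun ((hV _).1 v.2) (γ⁻¹ • x)]
        simp only [Matrix.mulVec, dotProduct]
        rw [← Equiv.sum_comp (MulAction.toPerm γ)]
        refine Finset.sum_congr rfl fun z _ => ?_
        rw [MulAction.toPerm_apply, inv_smul_smul, ← hE γ (γ⁻¹ • x), smul_inv_smul])⟩
      one_smul := fun v => Subtype.ext (funext fun x => congrArg v.1 (by simp))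
      mul_smul := fun a b v => Subtype.ext (funext fun x => congrArg v.1 (by simp [mul_smul]))
      smul_zero := fun _ => rfl
      smul_add := fun _ _ _ => rfl }
  obtain ⟨x, y, hxy⟩ : ∃ x y, h x y ≠ 0 := by
    by_contra hn
    push Not at hn
    exact h0 (Matrix.ext hn)
  obtain ⟨w, hw0, hw⟩ := exists_ne_zero_fixed (V := V) hΓ
    (fun v => by rw [← Nat.cast_smul_eq_nsmul k, CharP.cast_eq_zero, zero_smul])
    (v := ⟨h.col y, (hV _).2 (funext fun z => congrFun (congrFun hi.eq z) y)⟩)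
    fun e => hxy (congrFun (congrArg Subtype.val e) x)
  have h1 := (hV _).1 w.2
  have h2 : w.1 = w.1 t • (dO k Γ t).diag := by
    ext z
    have h3 : (dO k Γ t).mulVec w.1 = w.1 := by rw [← h1, Matrix.mulVec_mulVec, hd]
    rw [← congrFun h3 z]
    simp only [dO, Matrix.mulVec_diagonal, Matrix.diag_diagonal, Pi.smul_apply, smul_eq_mul]
    split_ifs with hz
    · obtain ⟨γ, rfl⟩ := hz
      have := congrFun (congrArg Subtype.val (hw γ⁻¹)) t
      rw [one_mul, mul_one, ← this]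
      exact congrArg w.1 (by simp)
    · simp
  have h4 : w.1 t ≠ 0 := fun e => hw0 (Subtype.ext (by rw [h2, e, zero_smul]; rfl))
  rw [h2, Matrix.mulVec_smul] at h1
  exact smul_right_injective _ h4 h1

theorem eq_dO [Finite Γ] (hΓ : IsPGroup p Γ) {t : X} {h : Matrix X X k} (hE : h ∈ EI k Γ X)
    (hi : IsIdempotentElem h) (h0 : h ≠ 0) (hd : dO k Γ t * h = h) (hd' : h * dO k Γ t = h) :
    h = dO k Γ t := by
  classical
  by_contra hn
  have h1 := mulVec_ind hΓ hE hi h0 hd
  have h2 := mulVec_ind hΓ (t := t) (sub_mem (dO_mem t) hE) (by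
    rw [IsIdempotentElem, sub_mul, mul_sub, mul_sub, (dO_idem t).eq, hd, hd', hi.eq]; simp)
    (sub_ne_zero.2 (Ne.symm hn)) (by rw [mul_sub, (dO_idem t).eq, hd])
  rw [Matrix.sub_mulVec, h1] at h2
  have := congrFun h2 t
  simp [dO, Matrix.mulVec_diagonal] at this

omit hp [CharP k p] in
theorem eq_of_rank_le {e f : Matrix X X k} (he : IsIdempotentElem e) (hf : IsIdempotentElem f)
    (h1 : e * f = f) (h2 : f * e = f) (h : e.rank ≤ f.rank) : f = e := by
  have h3 := (rkF_rank k X).add f (e - f) hf (by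
    rw [IsIdempotentElem, sub_mul, mul_sub, mul_sub, he.eq, h1, h2, hf.eq]; simp)
    (by rw [mul_sub, h2, hf.eq, sub_self]) (by rw [sub_mul, h1, hf.eq, sub_self])
  simp only [add_sub_cancel] at h3
  have h4 : (e - f).rank = 0 := by omega
  rw [Matrix.rank, Submodule.finrank_eq_zero, LinearMap.range_eq_bot] at h4
  refine (sub_eq_zero.1 ?_).symm
  exact Matrix.toLin'.injective (h4.trans (map_zero _).symm)

theorem exists_orbit [Finite Γ] (hΓ : IsPGroup p Γ) {e : Matrix X X k} (hE : e ∈ EI k Γ X)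
    (he : IsIdempotentElem e) (h0 : e ≠ 0) : ∃ t : X, ¬ BZ (MulAction.stabilizer Γ t) e ∧
      (e.rank ≤ (MulAction.stabilizer Γ t).index →
        ∀ R : Subgroup Γ, ¬ BZ R e → ∃ γ : Γ, R ≤ MulAction.stabilizer Γ (γ • t)) := by
  classical
  obtain ⟨f, ⟨hf, hf0, h1, h2⟩, hmin⟩ := exists_minimalFor_of_wellFoundedLT
    (fun f : EI k Γ X => IsIdempotentElem f ∧ f ≠ 0 ∧ e * f.1 = f.1 ∧ f.1 * e = f.1)
    (fun f => f.1.rank) ⟨⟨e, hE⟩, Subtype.ext he.eq, fun h => h0 (congrArg Subtype.val h),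
      he.eq, he.eq⟩
  have hf' : IsIdempotentElem f.1 := congrArg Subtype.val hf.eq
  have hm : ∀ i, IsIdempotentElem i → f * i = i → i * f = i → i = 0 ∨ i = f := by
    intro i hi h3 h4
    refine or_iff_not_imp_left.2 fun h5 => Subtype.ext ?_
    have h3' : f.1 * i.1 = i.1 := congrArg Subtype.val h3
    have h4' : i.1 * f.1 = i.1 := congrArg Subtype.val h4
    refine eq_of_rank_le hf' (congrArg Subtype.val hi.eq) h3' h4' ?_
    exact le_of_not_gt fun hlt => (hmin (j := i) ⟨hi, h5, by rw [← h3', ← mul_assoc, h1],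
      by rw [← h4', mul_assoc, h2]⟩ hlt.le).not_gt hlt
  letI := Fintype.ofFinite (MulAction.orbitRel.Quotient Γ X)
  obtain ⟨ω, -, c, hc⟩ := loc_sum k hf hf0 hm Finset.univ
    (fun ω : MulAction.orbitRel.Quotient Γ X => ⟨dO k Γ ω.out, dO_mem _⟩) ⟨1, by
      have : ∑ ω : MulAction.orbitRel.Quotient Γ X, (⟨dO k Γ ω.out, dO_mem _⟩ : EI k Γ X) = 1 := by
        ext x y
        rw [AddSubmonoidClass.coe_finsetSum, Matrix.sum_apply]
        simp only [dO, Matrix.diagonal_apply, OneMemClass.coe_one, Matrix.one_apply]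
        split_ifs with hxy
        · rw [Finset.sum_eq_single (Quotient.mk'' x)]
          · rw [if_pos]
            exact MulAction.orbitRel_apply.1 (Quotient.exact (Quotient.out_eq' _).symm)
          · intro b _ hb
            rw [if_neg fun hx => hb ?_]
            rw [← Quotient.out_eq' b]
            exact (Quotient.sound' (MulAction.orbitRel_apply.2 hx)).symm
          · simp
        · simp
      rw [this, mul_one, one_mul, hf.eq]⟩
  set t := ω.out
  have hc' : c.1 * (f.1 * dO k Γ t * f.1) = f.1 := congrArg Subtype.val hc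
  set d := dO k Γ t with hd
  have hdd : d * d = d := (dO_idem t).eq
  have hα : f.1 * c.1 * f.1 * d ∈ EI k Γ X := mul_mem (f * c * f).2 (dO_mem t)
  have hβ : d * f.1 ∈ EI k Γ X := mul_mem (dO_mem t) f.2
  have e1 : f.1 * c.1 * f.1 * d * (d * f.1) = f.1 := by
    calc _ = f.1 * (c.1 * (f.1 * (d * d) * f.1)) := by simp only [mul_assoc]
      _ = _ := by rw [hdd, hc', hf'.eq]
  have e2 : IsIdempotentElem (d * f.1 * (f.1 * c.1 * f.1 * d)) := by
    calc _ = d * f.1 * (f.1 * c.1 * f.1 * d * (d * f.1)) * (f.1 * c.1 * f.1 * d) := by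
          simp only [mul_assoc]
      _ = _ := by rw [e1, mul_assoc d, hf'.eq]
  have e3 : d * f.1 * (f.1 * c.1 * f.1 * d) = d := by
    refine eq_dO hΓ (mul_mem hβ hα) e2 (fun h => hf0 (Subtype.ext ?_)) ?_ ?_
    · calc f.1 = f.1 * f.1 := hf'.eq.symm
        _ = f.1 * c.1 * f.1 * d * (d * f.1 * (f.1 * c.1 * f.1 * d)) * (d * f.1) := by
          conv_lhs => rw [← e1]
          simp only [mul_assoc]
        _ = 0 := by rw [h, mul_zero, zero_mul]
    · rw [← hd, ← mul_assoc d (d * f.1), ← mul_assoc d, hdd]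
    · rw [← hd, mul_assoc, mul_assoc _ d d, hdd]
  have e4 : f.1.rank = (MulAction.stabilizer Γ t).index := by
    have := (rkF_rank k X).eqv _ _ (e1.symm ▸ hf') e2
    rw [e1, e3] at this
    rw [← rank_dO (k := k), ← hd, ← this]
  refine ⟨t, fun h => ?_, fun h R hR => ?_⟩
  · have h5 := BZ.mul hΓ hβ (mul_mem hE hα) (Or.inr (BZ.mul hΓ hE hα (Or.inl h)))
    rw [← mul_assoc e, ← mul_assoc e, ← mul_assoc e, h1, e3] at h5
    have := h5 t t le_rfl le_rfl
    simp [hd, dO] at this
  · have h6 := eq_of_rank_le he hf' h1 h2 (e4 ▸ h)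
    by_contra hn
    push Not at hn
    refine hR ?_
    rw [← h6, ← e1]
    refine BZ.mul hΓ hα hβ (Or.inr (BZ.mul hΓ (dO_mem t) f.2 (Or.inl fun x y hx _ => ?_)))
    simp only [hd, dO, Matrix.diagonal_apply]
    split_ifs with h7 h8
    · obtain ⟨γ, rfl⟩ := h8
      exact absurd hx (hn γ)
    · rfl
    · rfl

end perm

section app
variable {G : Type*} [Group G]

/-- `S × S` acting on `G` by left and right multiplication. -/
@[reducible] def biAct (S : Subgroup G) : MulAction (S × S) G where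
  smul γ x := γ.1 * x * (γ.2 : G)⁻¹
  one_smul x := by change ((1 : S) : G) * x * ((1 : S) : G)⁻¹ = x; simp
  mul_smul a b x := by
    change ((a.1 * b.1 : S) : G) * x * ((a.2 * b.2 : S) : G)⁻¹ =
      a.1 * (b.1 * x * (b.2 : G)⁻¹) * (a.2 : G)⁻¹
    simp [mul_assoc]

variable [Finite G] {p : ℕ} [hp : Fact p.Prime] {M : Ideal AlgInt} [PM p M]
  {B : Set (IrrCharacter G)}

omit hp in
theorem rank_fB [Fintype G] [DecidableEq G] {A : Set (IrrCharacter G)} (hA : IsSat M A) :
    (Matrix.of fun x y : G => (fB M A).coeff (x⁻¹ * y)).rank =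
      ∑ᶠ χ ∈ A, charDegree (χ : G → ℂ) ^ 2 ∧
    IsIdempotentElem (Matrix.of fun x y : G => (fB M A).coeff (x⁻¹ * y)) := by
  let U : Matrix G G (O M) := fun a b => ⟨rm (eB A) a b, hA.eB_mem_OG _⟩
  have hU : IsIdempotentElem U := by
    apply Matrix.map_injective (f := (O M).subtype) Subtype.val_injective
    change (O M).subtype.mapMatrix (U * U) = rm (eB A)
    rw [map_mul]
    exact (rm_mul _ _).symm.trans (congrArg rm (eB_idem A).eq)
  have h1 := congrArg (O M).subtype (trace_eq_rank_red hU)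
  have h2 : (IsLocalRing.residue (O M)).mapMatrix U =
      Matrix.of fun x y : G => (fB M A).coeff (x⁻¹ * y) := by
    ext a b
    exact (red_of_mem (hA.eB_mem_OG _)).symm
  refine ⟨?_, h2 ▸ hU.map _⟩
  rw [map_natCast, Matrix.trace, map_sum, h2] at h1
  rw [← Nat.cast_inj (R := ℂ), ← h1]
  have h3 : ∀ x : G, (O M).subtype (U.diag x) = blockCoeff A 1 := fun x => by
    change (eB A).coeff (x⁻¹ * x) = _
    rw [inv_mul_cancel]; rfl
  simp only [h3]
  rw [Finset.sum_const, Finset.card_univ, ← Nat.card_eq_fintype_card, blockCoeff_one, nsmul_eq_mul,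
    mul_div_cancel₀ _ (by exact_mod_cast Nat.card_pos.ne')]

theorem conj_eq_of_min_dim (hB : IsPBlock M B) (hmin : ∑ᶠ χ ∈ B, charDegree (χ : G → ℂ) ^ 2 =
    p ^ (2 * (Nat.card G).factorization p - blockDefect p B)) {D : Subgroup G}
    (hD : IsDefectGroup p M B D) (S : Sylow p G) (hS : D ≤ S) {Q : Subgroup G} (hQ : Q ≤ S)
    (h0 : Br Q (fB M B) ≠ 0) {x : G} (hx : x ∈ nN Q) :
    ∃ s ∈ (S : Subgroup G), ∀ u ∈ Q, x * u * x⁻¹ = s * u * s⁻¹ := by
  classical
  letI := Fintype.ofFinite G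
  letI := biAct (S : Subgroup G)
  have hs : ∀ (γ : S × S) (y : G), γ • y = γ.1 * y * (γ.2 : G)⁻¹ := fun _ _ => rfl
  have hΓ : IsPGroup p (S × S) := by
    refine IsPGroup.of_card (n := 2 * (Nat.card G).factorization p) ?_
    rw [Nat.card_prod, S.card_eq_multiplicity, two_mul, pow_add]
  obtain ⟨h1, h2⟩ := rank_fB (isSat_of_isPBlock hB)
  set e := Matrix.of fun x y : G => (fB M B).coeff (x⁻¹ * y) with he
  have hE : e ∈ EI (F M) (S × S) G := fun γ x y => by
    simp only [he, Matrix.of_apply, hs]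
    rw [← mem_Z.1 (fB_mem_Z B) γ.2 (x⁻¹ * y)]
    congr 1; group
  obtain ⟨t, h3, h4⟩ := exists_orbit hΓ hE h2 fun h => fB_ne_zero hB (ga_ext fun g => by
    simpa [he] using congrFun (congrFun h 1) g)
  have h5 : Nat.card (MulAction.stabilizer (S × S) t) ≤ Nat.card D := by
    let φ : MulAction.stabilizer (S × S) t →* G :=
      (S : Subgroup G).subtype.comp ((MonoidHom.snd S S).comp (Subgroup.subtype _))
    have hφ : Function.Injective φ := by
      rw [injective_iff_map_eq_one]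
      rintro ⟨⟨a, b⟩, hab⟩ h
      have hb : b = 1 := Subtype.ext h
      subst hb
      have : (a : G) * t * ((1 : S) : G)⁻¹ = t := hab
      have ha : a = 1 := Subtype.ext (by simpa using this)
      subst ha
      rfl
    rw [Nat.card_congr (MonoidHom.ofInjective hφ).toEquiv]
    refine ((IsDefectGroup.Br_ne_zero_iff hB hD ((hΓ.to_subgroup _).of_surjective _
      φ.rangeRestrict_surjective)).1 ?_).card_le
    simp only [BZ, not_forall] at h3
    obtain ⟨y, z, hy, hz, h6⟩ := h3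
    refine Br_ne_zero_iff.2 ⟨y⁻¹ * z, ?_, h6⟩
    rintro _ ⟨γ, rfl⟩
    have h7 : (γ.1.1 : G) * y * (γ.1.2 : G)⁻¹ = y := hy γ.2
    have h8 : (γ.1.1 : G) * z * (γ.1.2 : G)⁻¹ = z := hz γ.2
    change (γ.1.2 : G) * _ = _ * (γ.1.2 : G)
    conv_rhs => rw [← h7, ← h8]
    group
  have h6 : e.rank ≤ (MulAction.stabilizer (S × S) t).index := by
    have h7 := (MulAction.stabilizer (S × S) t).index_mul_card
    rw [Nat.card_prod, S.card_eq_multiplicity, ← pow_add, ← two_mul] at h7
    rw [IsDefectGroup.card hB hD] at h5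
    have h8 := blockDefect_le (p := p) (B := B)
    rw [h1, hmin]
    refine Nat.le_of_mul_le_mul_right ?_ (pow_pos hp.out.pos (blockDefect p B))
    rw [← pow_add, Nat.sub_add_cancel (by omega), ← h7]
    exact Nat.mul_le_mul_left _ h5
  let δ : D →* S × S := (Subgroup.inclusion hS).prod (Subgroup.inclusion hS)
  have hδ : Function.Injective δ := fun a b h =>
    Subgroup.inclusion_injective hS (congrArg Prod.fst h)
  obtain ⟨γ0, h9⟩ := h4 h6 δ.range fun h => by
    obtain ⟨g, hg, hg'⟩ := Br_ne_zero_iff.1 (IsDefectGroup.Br_ne_zero hD)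
    refine hg' ((congrArg _ (by simp)).trans (h 1 g ?_ ?_))
    · rintro _ ⟨u, rfl⟩
      change (u : G) * 1 * (u : G)⁻¹ = 1
      simp
    · rintro _ ⟨u, rfl⟩
      change (u : G) * g * (u : G)⁻¹ = g
      rw [hg u u.2, mul_inv_cancel_right]
  have h10 : δ.range = MulAction.stabilizer (S × S) (γ0 • t) := by
    refine Subgroup.eq_of_le_of_card_ge h9 ?_
    rw [MulAction.stabilizer_smul_eq_stabilizer_map_conj,
      Subgroup.card_map_of_injective (MulAut.conj γ0).injective,
      ← Nat.card_congr (MonoidHom.ofInjective hδ).toEquiv]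
    exact h5
  let ψ1 : Q →* S :=
    { toFun := fun u => ⟨x * u * x⁻¹, hQ ((conj_mem_of_nN hx).2 u.2)⟩
      map_one' := Subtype.ext (by simp)
      map_mul' := fun a b => Subtype.ext (by simp) }
  let ψ : Q →* S × S := ψ1.prod (Subgroup.inclusion hQ)
  obtain ⟨γ, h11⟩ := h4 h6 ψ.range fun h => by
    obtain ⟨g, hg, hg'⟩ := Br_ne_zero_iff.1 h0
    refine hg' ((congrArg _ (inv_mul_cancel_left x g).symm).trans (h x (x * g) ?_ ?_))
    · rintro _ ⟨u, rfl⟩
      change x * u * x⁻¹ * x * (u : G)⁻¹ = x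
      group
    · rintro _ ⟨u, rfl⟩
      change x * u * x⁻¹ * (x * g) * (u : G)⁻¹ = x * g
      calc _ = x * (u * g) * (u : G)⁻¹ := by group
        _ = _ := by rw [hg u u.2]; group
  set σ := γ * γ0⁻¹ with hσ
  refine ⟨σ.1 * (σ.2 : G)⁻¹, mul_mem σ.1.2 (inv_mem σ.2.2), fun u hu => ?_⟩
  have h12 : σ⁻¹ * ψ ⟨u, hu⟩ * σ ∈ δ.range := by
    rw [h10, MulAction.mem_stabilizer_iff, mul_smul, mul_smul, hσ, mul_smul, inv_smul_smul,
      h11 ⟨_, rfl⟩, mul_inv_rev, inv_inv, mul_smul, inv_smul_smul]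
  obtain ⟨v, hv⟩ := h12
  have h13 : (v : G) = (σ.1 : G)⁻¹ * (x * u * x⁻¹) * σ.1 := congrArg (fun a => (a.1 : G)) hv
  have h14 : (v : G) = (σ.2 : G)⁻¹ * u * σ.2 := congrArg (fun a => (a.2 : G)) hv
  calc _ = (σ.1 : G) * v * (σ.1 : G)⁻¹ := by rw [h13]; group
    _ = _ := by rw [h14]; group

theorem nil_of_min_dim (hB : IsPBlock M B) (hmin : ∑ᶠ χ ∈ B, charDegree (χ : G → ℂ) ^ 2 =
    p ^ (2 * (Nat.card G).factorization p - blockDefect p B)) : IsNilpotentBlock p M B := by
  rw [nil_iff hB]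
  intro Q f hf x hx h1
  obtain ⟨D, hD⟩ := exists_isDefectGroup p hB
  obtain ⟨E, hE, hQ⟩ := IsDefectGroup.exists_le_of_cle hD
    ((IsDefectGroup.Br_ne_zero_iff hB hD hf.pair.pg).1 hf.Br_ne_zero)
  obtain ⟨S, hS⟩ := (IsDefectGroup.isPGroup hE).exists_le_sylow
  obtain ⟨s, hs, h⟩ := conj_eq_of_min_dim hB hmin hE S hS (hQ.trans hS) hf.Br_ne_zero hx.1.2
  have h2 : ∀ n : ℕ, ∀ u ∈ Q, x ^ n * u * (x ^ n)⁻¹ = s ^ n * u * (s ^ n)⁻¹ := by
    intro n
    induction n with
    | zero => simp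
    | succ n ih =>
      intro u hu
      calc _ = x ^ n * (x * u * x⁻¹) * (x ^ n)⁻¹ := by rw [pow_succ]; group
        _ = s ^ n * (s * u * s⁻¹) * (s ^ n)⁻¹ := by
          rw [ih _ ((conj_mem_of_nN hx.1.2).2 hu), h u hu]
        _ = _ := by rw [pow_succ]; group
  obtain ⟨n, hn⟩ := (isPE_of_mem S.isPGroup' hs).exists_pow
  have h3 : x ^ p ^ n ∈ cC Q := fun u hu => by
    have := h2 (p ^ n) u hu
    rw [hn, one_mul, inv_one, mul_one] at this
    exact (mul_inv_eq_iff_eq_mul.1 this).symm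
  obtain ⟨m, hm⟩ := exists_pow_eq_self_of_coprime (x := x) (n := p ^ n)
    (((hp.out.coprime_iff_not_dvd).2 h1).pow_left n)
  exact hm ▸ pow_mem h3 m

end app

end H7
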