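import Cfsg.Agent.H8.KGV
import Cfsg.Agent.H8.CM
import Cfsg.Agent.H7.Second
import Cfsg.Agent.H5.Equiv
import Cfsg.Agent.H6.Extension

/-! Square roots up to roots of unity (`Sq`), integral combinations of characters (`CI`), Galois
averaging (`card_le_of_gal`) and the Robinson–Thompson criterion for `k(GV) ≤ |V|` (`rv_crit`). -/

open H5 Cfsg Subgroup Finset
open scoped ComplexConjugate Classical

namespace H7

/-- `x² = A` up to a root of unity. -/
def Sq (x : ℂ) (A : ℕ) : Prop := ∃ n, 0 < n ∧ x ^ (2 * n) = A ^ n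

namespace Sq
variable {x y : ℂ} {A B D : ℕ}

theorem mul (h : Sq x A) (h' : Sq y B) : Sq (x * y) (A * B) := by
  obtain ⟨n, n0, hn⟩ := h
  obtain ⟨m, m0, hm⟩ := h'
  refine ⟨n * m, by positivity, ?_⟩
  rw [mul_pow, ← mul_assoc, pow_mul x, hn, mul_assoc, mul_left_comm, mul_comm n, pow_mul y, hm]
  push_cast; ring

theorem map (h : Sq x A) (σ : ℂ ≃+* ℂ) : Sq (σ x) A :=
  h.imp fun n h => ⟨h.1, by rw [← map_pow, h.2]; simp⟩

theorem norm (h : Sq x A) : ‖x‖ ^ 2 = A := by
  obtain ⟨n, n0, hn⟩ := h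
  have := congrArg (‖·‖) hn
  simp only [norm_pow, pow_mul, Complex.norm_natCast] at this
  exact (pow_left_inj₀ (by positivity) (by positivity) n0.ne').1 this

theorem ne_zero (h : Sq x A) (h0 : A ≠ 0) : x ≠ 0 := fun e => h0 (by
  have := h.norm
  rw [e, norm_zero, zero_pow two_ne_zero] at this
  exact_mod_cast this.symm)

theorem div (h : Sq x (B * D)) (h' : Sq y B) (h0 : B ≠ 0) : Sq (x / y) D := by
  obtain ⟨n, n0, hn⟩ := h
  obtain ⟨m, m0, hm⟩ := h'
  refine ⟨n * m, by positivity, ?_⟩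
  have : (B : ℂ) ≠ 0 := by exact_mod_cast h0
  rw [div_pow, ← mul_assoc, pow_mul x, hn, mul_assoc, mul_left_comm, mul_comm n, pow_mul y, hm]
  push_cast; field_simp; ring

theorem isIntegral (h : Sq x A) : IsIntegral ℤ x :=
  have ⟨n, n0, hn⟩ := h
  IsIntegral.of_pow (n := 2 * n) (by omega) (hn ▸ (isIntegral_natCast A).pow n)

theorem prod {ι : Type*} (s : Finset ι) {f : ι → ℂ} {g : ι → ℕ} (h : ∀ i, Sq (f i) (g i)) :
    Sq (∏ i ∈ s, f i) (∏ i ∈ s, g i) := by
  induction s using Finset.induction_on with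
  | empty => exact ⟨1, one_pos, by simp⟩
  | insert a s ha ih => rw [prod_insert ha, prod_insert ha]; exact (h a).mul ih

end Sq

theorem card_le_of_gal {I : Type*} [Fintype I] {a : I → ℂ} (h0 : ∀ i, a i ≠ 0)
    (h1 : ∀ i, IsIntegral ℤ (a i)) {B : ℝ} (h : ∀ σ : ℂ ≃+* ℂ, ∑ i, ‖σ (a i)‖ ^ 2 ≤ B) :
    Fintype.card I ≤ B := by
  have hf : (Set.range fun (σ : ℂ ≃+* ℂ) i => σ (a i)).Finite :=
    (Set.Finite.pi' fun i => Polynomial.rootSet_finite (minpoly ℤ (a i)) ℂ).subset (by
      rintro _ ⟨σ, rfl⟩ i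
      rw [Polynomial.mem_rootSet_of_injective (RingHom.injective_int _) (minpoly.ne_zero (h1 i))]
      exact (Polynomial.aeval_algHom_apply σ.toRingHom.toIntAlgHom _ _).trans (by simp))
  have h2 : ∀ i, (hf.toFinset.card : ℝ) ≤ ∑ b ∈ hf.toFinset, ‖b i‖ ^ 2 := fun i => by
    obtain ⟨n, hn⟩ := exists_int_of_forall_ringEquiv (α := ∏ b ∈ hf.toFinset, b i)
      (IsIntegral.prod _ fun b hb => by
        obtain ⟨σ, rfl⟩ := hf.mem_toFinset.1 hb
        exact (h1 i).map σ.toRingHom.toIntAlgHom) fun σ => by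
      rw [map_prod]
      refine prod_nbij' (fun b j => σ (b j)) (fun b j => σ.symm (b j)) (fun b hb => ?_)
        (fun b hb => ?_) (by simp) (by simp) fun _ _ => rfl
      all_goals obtain ⟨τ, rfl⟩ := hf.mem_toFinset.1 hb
      exacts [hf.mem_toFinset.2 ⟨τ.trans σ, rfl⟩, hf.mem_toFinset.2 ⟨τ.trans σ.symm, rfl⟩]
    have hpos : ∀ b ∈ hf.toFinset, b i ≠ 0 := fun b hb => by
      obtain ⟨σ, rfl⟩ := hf.mem_toFinset.1 hb
      simpa using h0 i
    have h3 : (1 : ℝ) ≤ ∏ b ∈ hf.toFinset, ‖b i‖ ^ 2 := by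
      rw [prod_pow, ← norm_prod, hn, Complex.norm_intCast, sq_abs]
      have : n ≠ 0 := by rintro rfl; exact prod_ne_zero_iff.2 hpos (by simpa using hn)
      exact_mod_cast sq_pos_of_ne_zero this
    have h4 := Real.log_nonneg h3
    rw [Real.log_prod fun s hs => by have := hpos s hs; positivity] at h4
    have h5 := sum_le_sum fun b (hb : b ∈ hf.toFinset) =>
      Real.log_le_sub_one_of_pos (x := ‖b i‖ ^ 2) (by have := hpos b hb; positivity)
    rw [sum_sub_distrib, sum_const, nsmul_eq_mul, mul_one] at h5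
    linarith
  have h3 := sum_le_sum fun i (_ : i ∈ univ) => h2 i
  rw [sum_comm, sum_const, card_univ, nsmul_eq_mul, mul_comm] at h3
  refine le_of_mul_le_mul_left (h3.trans ?_) (Nat.cast_pos.2 (card_pos.2
    ⟨_, hf.mem_toFinset.2 ⟨RingEquiv.refl ℂ, rfl⟩⟩))
  rw [← nsmul_eq_mul]
  refine sum_le_card_nsmul _ _ _ fun b hb => ?_
  obtain ⟨σ, rfl⟩ := hf.mem_toFinset.1 hb
  exact h σ

variable {H : Type*} [Group H] [Fintype H] {f η : H → ℂ}

variable (H) in
/-- Combinations of characters with algebraic integer coefficients. -/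
def CI : Subring (H → ℂ) where
  carrier := {f | IsClassFunction H f ∧ ∀ χ, IsCharacter H χ → IsIntegral ℤ (classInner f χ)}
  zero_mem' := ⟨isClassFunction_zero, fun χ _ => by simpa using isIntegral_zero⟩
  one_mem' := ⟨isClassFunction_const 1, fun χ h => by
    obtain ⟨n, hn⟩ := isCharacter_one'.exists_classInner_nat h
    exact hn ▸ isIntegral_natCast n⟩
  add_mem' h h' := ⟨h.1.add h'.1, fun χ e => classInner_add_left _ _ χ ▸ (h.2 χ e).add (h'.2 χ e)⟩
  neg_mem' h := ⟨h.1.neg, fun χ e => classInner_neg_left _ χ ▸ (h.2 χ e).neg⟩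
  mul_mem' {f g} h h' := ⟨h.1.mul h'.1, fun χ e => by
    rw [h'.1.eq_sum_irr, mul_sum, classInner_sum_left]
    refine IsIntegral.sum _ fun φ _ => ?_
    rw [mul_smul_comm, classInner_smul_left, classInner_mul_left]
    exact (h'.2 _ φ.2.isCharacter).mul (h.2 _ (e.mul φ.2.isCharacter.conj))⟩

theorem mem_CI_of_char (h : IsCharacter H f) : f ∈ CI H := ⟨h.isClassFunction, fun χ e => by
  obtain ⟨n, hn⟩ := h.exists_classInner_nat e
  exact hn ▸ isIntegral_natCast n⟩

theorem smul_mem_CI {c : ℂ} (hc : IsIntegral ℤ c) (h : f ∈ CI H) : c • f ∈ CI H :=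
  ⟨h.1.smul c, fun χ e => classInner_smul_left _ χ c ▸ hc.mul (h.2 χ e)⟩

theorem isIntegral_of_mem_CI (h : f ∈ CI H) (x : H) : IsIntegral ℤ (f x) := by
  rw [h.1.apply_eq_sum_irr]
  exact IsIntegral.sum _ fun φ _ => (h.2 _ φ.2.isCharacter).mul (φ.2.isCharacter.isIntegral x)

theorem exists_inv_CI (h : η ∈ CI H) : ∃ g ∈ CI H, ∀ x, η x * g x = ∏ y, η y := by
  suffices ∀ T : Finset H, ∃ g ∈ CI H, ∀ x, ∏ t ∈ T, (η t - η x) = ∏ t ∈ T, η t - η x * g x by
    obtain ⟨g, h1, h2⟩ := this univ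
    exact ⟨g, h1, fun x => (sub_eq_zero.1 ((h2 x).symm.trans
      (prod_eq_zero (mem_univ x) (sub_self _)))).symm⟩
  intro T
  induction T using Finset.induction_on with
  | empty => exact ⟨0, zero_mem _, by simp⟩
  | insert a T ha ih =>
    obtain ⟨g, h1, h2⟩ := ih
    refine ⟨η a • g + (∏ t ∈ T, η t) • 1 - η * g, sub_mem (add_mem (smul_mem_CI
      (isIntegral_of_mem_CI h a) h1) (smul_mem_CI (IsIntegral.prod _ fun t _ =>
        isIntegral_of_mem_CI h t) (one_mem _))) (mul_mem h h1), fun x => ?_⟩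
    rw [prod_insert ha, prod_insert ha, h2]
    simp; ring

theorem sum_gal_inner (hf : IsClassFunction H f) (σ : ℂ ≃+* ℂ) :
    ∑ φ : IrrCharacter H, ‖σ (classInner f φ)‖ ^ 2 = (Nat.card H : ℝ)⁻¹ * ∑ x, ‖σ (f x)‖ ^ 2 := by
  have h1 : IsClassFunction H fun x => σ (f x) :=
    isClassFunction_of_isConj fun x y e => by rw [hf.eq_of_isConj e]
  let τ : IrrCharacter H → IrrCharacter H := fun φ => ⟨_, φ.2.map_ringHom σ⟩
  have h2 : Function.Bijective τ := Finite.injective_iff_bijective.1 fun a b e =>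
    Subtype.ext (funext fun x => σ.injective (congrFun (congrArg Subtype.val e) x))
  apply Complex.ofReal_injective
  rw [← classInner_self, h1.classInner_eq_sum, ← h2.sum_comp fun χ : IrrCharacter H =>
    classInner (fun x => σ (f x)) χ * conj (classInner (fun x => σ (f x)) χ)]
  push_cast
  refine sum_congr rfl fun φ _ => ?_
  rw [← Complex.mul_conj', φ.2.isCharacter.classInner_eq_inv, (τ φ).2.isCharacter.classInner_eq_inv]
  simp [τ]

theorem rv_crit {X : Type*} [Group X] [Finite X] {p : ℕ} [hp : Fact p.Prime] {V G U H : Subgroup X}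
    [hN : V.Normal] (hV : IsPGroup p V) (hidx : ¬ p ∣ V.index)
    (hab : ∀ a ∈ V, ∀ b ∈ V, a * b = b * a) (hGV : IsComplement' V G) {v : X} (hv : v ∈ V)
    (hH : G ⊓ centralizer {v} = H) [Fintype H] (hU : U ≤ V)
    (hf : ∀ h : H, U ≤ centralizer {h.1} → h = 1) {η : H → ℂ} (h1 : η ∈ CI H)
    (h2 : ∀ h : H, Sq (η h) (Nat.card (U ⊓ centralizer {h.1} : Subgroup X))) :
    Nat.card (ConjClasses X) ≤ Nat.card V := by
  have := Fintype.ofFinite X
  obtain ⟨M, hM⟩ := exists_isPModular p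
  have : PM p M := ⟨hM⟩
  have hH1 : H ≤ G := hH ▸ inf_le_left
  have hH2 : H ≤ centralizer {v} := hH ▸ inf_le_right
  have hG : ¬ p ∣ Nat.card H := fun e => hidx (hGV.symm.index_eq_card ▸ e.trans (card_dvd_of_le hH1))
  obtain ⟨hd, ht⟩ := H1.isComplement'_iff_of_normal.1 hGV
  have s1 : ∀ h : H, Sq (η 1 / η h) ((centralizer {h.1}).relIndex U) := fun h => Sq.div (by
    have := h2 1
    rwa [inf_eq_left.2 fun u _ => mem_centralizer_singleton_iff.2 (by simp),
      ← H1.card_inf_mul_relIndex (centralizer {h.1}) U, inf_comm] at this) (h2 h) Nat.card_pos.ne'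
  have s2 : ∀ h, η h ≠ 0 := fun h => (h2 h).ne_zero Nat.card_pos.ne'
  have s3 : ∀ χ : X → ℂ, IsCharacter X χ → (fun h : H => χ (v * h)) ∈ CI H := fun χ hχ =>
    ⟨isClassFunction_of_isConj fun a b e => by
      obtain ⟨c, rfl⟩ := isConj_iff.1 e
      rw [← hχ.isClassFunction (v * a) c, ← mul_assoc, mem_centralizer_singleton_iff.1 (hH2 c.2)]
      simp [mul_assoc], fun φ hφ => by
      let ι : H × zpowers v →* X := MonoidHom.noncommCoprod H.subtype (zpowers v).subtype
        fun a b => by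
          obtain ⟨_, i, rfl⟩ := b
          exact Commute.zpow_right (mem_centralizer_singleton_iff.1 (hH2 a.2)) i
      have := isIntegral_avg' (MonoidHom.inl H (zpowers v)) (z := (1, ⟨v, mem_zpowers v⟩))
        (fun g => Prod.ext (by simp) (Subtype.ext (by
          obtain ⟨i, hi⟩ := g.2.2
          show g.2.1 * v = v * g.2.1
          rw [← hi]; exact (Commute.refl v).zpow_left i)))
        ((hχ.comp ι).mul (hφ.conj.comp (MonoidHom.fst _ _)))
      simpa [ι, classInner, hχ.apply_mul_comm v] using this⟩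
  let F : IrrCharacter X → H → ℂ := fun χ h => η 1 / η h * χ.1 (v * h)
  have f1 : ∀ χ, IsClassFunction H (F χ) := fun χ => isClassFunction_of_isConj fun a b e => by
    simp only [F, h1.1.eq_of_isConj e, (s3 _ χ.2.isCharacter).1.eq_of_isConj e]
  have i1 : ∀ (χ : IrrCharacter X) (φ : IrrCharacter H) h, IsIntegral ℤ (F χ h * conj (φ.1 h)) :=
    fun χ φ h => ((s1 h).isIntegral.mul (χ.2.isCharacter.isIntegral _)).mul
      (φ.2.isCharacter.conj.isIntegral h)
  have key := card_le_of_gal (a := fun i : IrrCharacter X × IrrCharacter H => classInner (F i.1) i.2)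
    (B := Nat.card V * Nat.card (ConjClasses H)) (fun ⟨χ, φ⟩ e => ?_) (fun ⟨χ, φ⟩ => ?_) fun σ => ?_
  · rw [Fintype.card_prod, ← Nat.card_eq_fintype_card, ← Nat.card_eq_fintype_card,
      card_irr_eq_card_conjClasses, card_irr_eq_card_conjClasses] at key
    exact Nat.le_of_mul_le_mul_right (by exact_mod_cast key) Nat.card_pos
  · have e1 := congrArg (red M) (card_mul_classInner (F χ) φ)
    rw [e, mul_zero, red_zero, red_sum _ fun h _ => mem_O_of_isIntegral (i1 χ φ h),
      sum_eq_single 1 (fun h _ e => red_eq_zero (mul_mem_mC_right (mul_mem_mC_right ?_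
        (mem_O_of_isIntegral (χ.2.isCharacter.isIntegral _)))
        (mem_O_of_isIntegral (φ.2.isCharacter.conj.isIntegral h)))) (by simp)] at e1
    · simp only [F, div_self (s2 1), one_mul, OneMemClass.coe_one, mul_one] at e1
      rw [red_mul (mem_O_of_isIntegral (χ.2.isCharacter.isIntegral _)) (mem_O_of_isIntegral
        (φ.2.isCharacter.conj.isIntegral 1)), red_char_eq_red_pr χ.2.isCharacter,
        pr_of_isPE (isPE_of_mem hV hv), φ.2.isCharacter.conj_apply_one, ← χ.2.coe_charDegree,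
        ← φ.2.coe_charDegree, red_natCast, red_natCast, eq_comm, mul_eq_zero, natCast_F_eq_zero_iff,
        natCast_F_eq_zero_iff] at e1
      exact e1.elim (fun e => hidx (e.trans (H6.ito_degree_dvd V hab χ.2)))
        fun e => hG (e.trans φ.2.charDegree_dvd_card)
    · obtain ⟨n, n0, hn⟩ := s1 h
      have e2 := mem_O_of_isIntegral (M := M) (s1 h).isIntegral
      obtain ⟨k, hk⟩ := IsPGroup.iff_card.1 (hV.to_le hU)
      obtain ⟨_ | j, -, hj⟩ := (Nat.dvd_prime_pow hp.out).1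
        (hk ▸ relIndex_dvd_card (centralizer {h.1}) U)
      · exact absurd (hf h (relIndex_eq_one.1 hj)) e
      have e3 := congrArg (red M) hn
      rw [red_pow e2, ← Nat.cast_pow, red_natCast, (natCast_F_eq_zero_iff _).2
        (dvd_pow (hj ▸ Dvd.intro_left _ (pow_succ p j).symm) n0.ne')] at e3
      exact (red_eq_zero_iff e2).1 (pow_eq_zero_iff (by omega) |>.1 e3)
  · obtain ⟨g, g1, g2⟩ := exists_inv_CI h1
    obtain ⟨n, n0, hn⟩ := Sq.prod univ h2
    refine H8.isIntegral_of_coprime (a := Nat.card H) (b := (∏ h : H, Nat.card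
      (U ⊓ centralizer {h.1} : Subgroup X)) ^ n) (Nat.Coprime.pow_right n (Nat.Coprime.prod_right
        fun h _ => ?_)) (card_mul_classInner (F χ) φ ▸ IsIntegral.sum _ fun h _ => i1 χ φ h) ?_
    · obtain ⟨k, hk⟩ := IsPGroup.iff_card.1 ((hV.to_le hU).to_inf_left (K := centralizer {h.1}))
      exact hk ▸ ((Nat.Prime.coprime_iff_not_dvd hp.out).2 hG).symm.pow_right k
    · obtain ⟨m, hm⟩ : ∃ m, 2 * n = m + 1 := ⟨2 * n - 1, by omega⟩
      rw [Nat.cast_pow, ← hn, hm, pow_succ, mul_assoc, ← classInner_smul_left,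
        show (∏ h, η h) • F χ = η 1 • (g * fun h : H => χ.1 (v * h)) from funext fun h => by
          simp only [F, Pi.smul_apply, Pi.mul_apply, smul_eq_mul, ← g2 h]; field_simp [s2 h]]
      exact ((IsIntegral.prod _ fun h _ => (h2 h).isIntegral).pow m).mul ((smul_mem_CI
        (h2 1).isIntegral (mul_mem g1 (s3 _ χ.2.isCharacter))).2 _ φ.2.isCharacter)
  · rw [Fintype.sum_prod_type]
    simp only [sum_gal_inner (f1 _), ← mul_sum]
    rw [sum_comm, inv_mul_le_iff₀ (by exact_mod_cast Nat.card_pos), mul_comm, mul_assoc,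
      ← Nat.cast_mul, ← sum_card_centralizer, Nat.cast_sum, mul_sum]
    refine sum_le_sum fun h _ => ?_
    let τ : IrrCharacter X → IrrCharacter X := fun φ => ⟨_, φ.2.map_ringHom σ⟩
    have t1 : Function.Bijective τ := Finite.injective_iff_bijective.1 fun a b e =>
      Subtype.ext (funext fun x => σ.injective (congrFun (congrArg Subtype.val e) x))
    simp only [F, map_mul, norm_mul, mul_pow, ((s1 h).map σ).norm, ← mul_sum]
    rw [show ∑ χ : IrrCharacter X, ‖σ (χ.1 (v * h))‖ ^ 2 = _ from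
      t1.sum_comp fun χ => ‖χ.1 (v * h)‖ ^ 2, sum_irr_normSq]
    have c1 : Commute v h := (mem_centralizer_singleton_iff.1 (hH2 h.2)).symm
    have c2 : ¬ p ∣ orderOf h.1 := fun e => hG (e.trans (orderOf_dvd_natCard _ h.2))
    have c3 : ∀ x ∈ centralizer {v * h}, Commute x v ∧ Commute x h := fun x hx => by
      obtain ⟨n, hn⟩ := exists_pow_eq_pp (p := p) (v * h)
      have e1 : Commute x (v * h) := mem_centralizer_singleton_iff.1 hx
      have e2 : Commute x v := pp_mul_of (isPE_of_mem hV hv) c2 c1 ▸ hn ▸ e1.pow_right n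
      exact ⟨e2, by simpa using e2.inv_right.mul_right e1⟩
    have c4 : centralizer {v * h} ≤ (centralizer {h}).map H.subtype ⊔ V := fun x hx => by
      obtain ⟨w, hw, g, hg, rfl⟩ := mem_sup_of_normal_left.1 (ht.ge (mem_top x))
      have e1 : g ∈ H := hH ▸ ⟨hg, mem_centralizer_singleton_iff.2 (by
        simpa using ((show Commute w v from hab w hw v hv).inv_left.mul_left (c3 _ hx).1).eq)⟩
      have e2 : g * h * g⁻¹ * h.1⁻¹ ∈ V ⊓ G := ⟨by
        rw [show g * h * g⁻¹ * h.1⁻¹ = w⁻¹ * (w * g * h * (w * g)⁻¹ * w * h.1⁻¹) by group,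
          (c3 _ hx).2.eq, mul_inv_cancel_right]
        exact V.mul_mem (V.inv_mem hw) (hN.conj_mem w hw h), hH1 (H.mul_mem (H.mul_mem
          (H.mul_mem e1 h.2) (H.inv_mem e1)) (H.inv_mem h.2))⟩
      rw [hd, mem_bot, mul_inv_eq_one, mul_inv_eq_iff_eq_mul] at e2
      exact mul_mem (mem_sup_right hw) (mem_sup_left ⟨⟨g, e1⟩,
        mem_centralizer_singleton_iff.2 (Subtype.ext e2), rfl⟩)
    have c5 := relIndex_le_of_le_right (H := V) c4 (H1.relIndex_ne_zero _ _)
    rw [relIndex_sup_right] at c5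
    have c6 := c5.trans (Nat.le_of_dvd Nat.card_pos (relIndex_dvd_card V _))
    rw [card_map_of_injective H.subtype_injective] at c6
    have c7 := card_le_of_le (inf_le_inf_left V fun x hx =>
      (mem_centralizer_singleton_iff.2 (c3 x hx).2 : x ∈ centralizer {h.1}))
    have c8 := relIndex_le_of_le_right (H := centralizer {h.1}) hU (H1.relIndex_ne_zero _ _)
    rw [← H1.card_inf_mul_relIndex V (centralizer {v * h}),
      ← H1.card_inf_mul_relIndex (centralizer {h.1}) V, inf_comm (centralizer {h.1}),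
      mul_comm (Nat.card (V ⊓ centralizer {h.1} : Subgroup X))]
    push_cast
    rw [mul_assoc]
    gcongr

end H7
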