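import Cfsg.Agent.H7.RV1
import Cfsg.Agent.H8.FRam
import Cfsg.Agent.S4966
import Mathlib.NumberTheory.LegendreSymbol.AddCharacter
import Mathlib.Analysis.SpecialFunctions.Complex.CircleAddChar

/-! Square roots of the permutation character of a self-dual coprime module: Gauss sums
(`sq_symm`), the Weil character via the Heisenberg group `Hz` (`sq_alt`), and `sq_dual`. -/

open H5 H6 Cfsg Subgroup Finset
open scoped ComplexConjugate Classical

namespace H7

variable {p : ℕ} [hp : Fact p.Prime] {H W : Type*} [Group H] [Fintype H] [AddCommGroup W]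
  [Module (ZMod p) W] [Fintype W] {ρ : Representation (ZMod p) H W}
  {B : W →ₗ[ZMod p] W →ₗ[ZMod p] ZMod p}

/-- number of fixed vectors -/
noncomputable def Fx (ρ : Representation (ZMod p) H W) (h : H) : ℕ := Nat.card {x // ρ h x = x}

omit [Fintype W] in
theorem exists_proj (hc : ¬ p ∣ Nat.card H) (h : H) (x : W) :
    ∃ c y, ρ h c = c ∧ x = c + (y - ρ h y) := by
  have h1 : ∀ n : ℕ, ∃ y, x - ρ (h ^ n) x = y - ρ h y := fun n => by
    induction n with
    | zero => exact ⟨0, by simp⟩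
    | succ n ih =>
      obtain ⟨y, hy⟩ := ih
      exact ⟨y + ρ (h ^ n) x, by rw [pow_succ', map_mul, map_add, ← sub_add_sub_comm, ← hy]; simp⟩
  choose y hy using h1
  have h2 : (Nat.card H : ZMod p) ≠ 0 := mt (ZMod.natCast_eq_zero_iff _ _).1 hc
  refine ⟨(Nat.card H : ZMod p)⁻¹ • ∑ i ∈ range (Nat.card H), ρ (h ^ i) x,
    (Nat.card H : ZMod p)⁻¹ • ∑ i ∈ range (Nat.card H), y i, ?_, ?_⟩
  · have := (sum_range_succ' (fun i => ρ (h ^ i) x) (Nat.card H)).symm.trans (sum_range_succ _ _)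
    rw [pow_card_eq_one', pow_zero, add_left_inj] at this
    rw [map_smul, map_sum, ← this]
    simp [pow_succ']
  · rw [map_smul, map_sum, ← smul_sub, ← smul_add, ← sum_sub_distrib, ← sum_add_distrib]
    simp only [← hy, add_sub_cancel, sum_const, card_range]
    rw [← Nat.cast_smul_eq_nsmul (ZMod p), inv_smul_smul₀ h2]

omit [Fintype W] in
theorem nondeg_fix (hc : ¬ p ∣ Nat.card H) (hB : ∀ g x y, B (ρ g x) (ρ g y) = B x y) {h : H} {z : W}
    (hz : ρ h z = z) (h0 : ∀ c, ρ h c = c → B z c = 0) (x : W) : B z x = 0 := by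
  obtain ⟨c, y, h1, rfl⟩ := exists_proj (ρ := ρ) hc h x
  rw [map_add, map_sub, h0 c h1, ← hB h z y, hz]; simp

theorem sq_symm (h2 : p ≠ 2) (hc : ¬ p ∣ Nat.card H) (hB : ∀ g x y, B (ρ g x) (ρ g y) = B x y)
    (hs : ∀ x y, B x y = B y x) (hn : ∀ x, (∀ y, B x y = 0) → x = 0) :
    ∃ η ∈ CI H, ∀ h, Sq (η h) (Fx ρ h) := by
  obtain ⟨ψ, hψ⟩ : ∃ ψ : AddChar (ZMod p) ℂ, ψ.IsPrimitive := ⟨_, ZMod.isPrimitive_stdAddChar p⟩
  refine ⟨fun h => ∑ x : {x // ρ h x = x}, ψ (B x x), ?_, fun h => ⟨2, two_pos, ?_⟩⟩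
  · rw [show (fun h => ∑ x : {x // ρ h x = x}, ψ (B x x)) = ∑ t, ψ t • fun h =>
      (Nat.card {x : {x // B x x = t} // ρ h x = x} : ℂ) from funext fun h => by
        rw [← sum_fiberwise univ fun x : {x // ρ h x = x} => B x x, Finset.sum_apply]
        refine sum_congr rfl fun t _ => ?_
        rw [sum_congr rfl fun x hx => by rw [(mem_filter.1 hx).2], sum_const, nsmul_eq_mul, mul_comm,
          ← Fintype.card_subtype, ← Nat.card_eq_fintype_card]
        exact congrArg (ψ t * Nat.cast ·) (Nat.card_congr ((Equiv.subtypeSubtypeEquivSubtypeInter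
          _ fun x => B x x = t).trans ((Equiv.subtypeEquivRight fun _ => and_comm).trans
          (Equiv.subtypeSubtypeEquivSubtypeInter _ fun x => ρ h x = x).symm)))]
    refine sum_mem fun t _ => smul_mem_CI (isIntegral_of_pow_eq_one hp.out.pos
      (by rw [← AddChar.map_nsmul_eq_pow]; simp)) (mem_CI_of_char ?_)
    letI : MulAction H {x // B x x = t} :=
      { smul := fun g x => ⟨ρ g x, (hB g x x).trans x.2⟩
        one_smul := fun x => Subtype.ext (by show ρ 1 x = x; simp)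
        mul_smul := fun g k x => Subtype.ext (by show ρ (g * k) x = ρ g (ρ k x); simp) }
    convert isCharacter_fixedBy (G := H) {x // B x x = t} using 3 with h
    exact Nat.card_congr (Equiv.subtypeEquivRight fun x =>
      ⟨fun e => Subtype.ext e, fun e => congrArg Subtype.val e⟩)
  let C := LinearMap.ker (ρ h - LinearMap.id)
  have hC : ∀ x, ρ h x = x ↔ x ∈ C := fun x => by simp [C, sub_eq_zero]
  rw [Fx, Nat.card_congr (Equiv.subtypeEquivRight hC)]
  simp only [← Equiv.sum_comp (Equiv.subtypeEquivRight hC).symm]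
  show (∑ x : C, ψ (B x x)) ^ (2 * 2) = _
  have e1 : (∑ x : C, ψ (B x x)) * ∑ x : C, ψ (-B x x) = Nat.card C := by
    rw [sum_mul_sum, sum_comm]
    simp only [← fun y : C => Equiv.sum_comp (Equiv.addRight y) fun x : C => ψ (B x x) * ψ (-B y y)]
    rw [sum_comm, sum_eq_single 0 (fun z _ hz => ?_) (by simp)]
    · simp [← AddChar.map_add_eq_mul]
    have : ∀ y : C, ψ (B (z + y) (z + y)) * ψ (-B y y) = ψ (B z z) * ψ (2 * B z y) := fun y => by
      rw [← AddChar.map_add_eq_mul, ← AddChar.map_add_eq_mul]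
      simp only [map_add, LinearMap.add_apply, hs y z]; ring_nf
    simp only [Equiv.coe_addRight, Submodule.coe_add, this, ← mul_sum]
    obtain ⟨c, h3, h4⟩ : ∃ c, ρ h c = c ∧ B z c ≠ 0 := by
      by_contra! e
      exact hz (Subtype.ext (hn _ (nondeg_fix hc hB ((hC _).2 z.2) e)))
    have h5 : (2 : ZMod p) ≠ 0 := fun e => h2 ((Nat.prime_dvd_prime_iff_eq hp.out Nat.prime_two).1
      ((ZMod.natCast_eq_zero_iff 2 p).1 e))
    refine mul_eq_zero_of_right _ (AddChar.sum_eq_zero_iff_ne_zero (ψ := ψ.compAddMonoidHom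
      ((2 : ZMod p) • (B z).comp C.subtype).toAddMonoidHom) |>.2 fun e => ?_)
    exact mul_ne_zero h5 h4 ((hψ.zmod_char_eq_one_iff p _).1 (DFunLike.congr_fun e ⟨c, (hC c).1 h3⟩))
  have e2 : (∑ x : C, ψ (B x x)) ^ 2 = (∑ x : C, ψ (-B x x)) ^ 2 := by
    obtain ⟨a, b, e⟩ := ZMod.sq_add_sq p (-1)
    let f : C × C → C × C := fun x => (a • x.1 + b • x.2, b • x.1 - a • x.2)
    have f1 : ∀ x, f (f x) = -x := fun x => Prod.ext
      (by simp only [f, Prod.fst_neg]; linear_combination (norm := module) e • x.1)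
      (by simp only [f, Prod.snd_neg]; linear_combination (norm := module) e • x.2)
    have f2 : Function.Bijective f := Finite.injective_iff_bijective.1 fun x y e =>
      neg_injective ((f1 x).symm.trans ((congrArg f e).trans (f1 y)))
    rw [sq, sq, sum_mul_sum, sum_mul_sum, ← Fintype.sum_prod_type', ← Fintype.sum_prod_type',
      ← f2.sum_comp]
    refine sum_congr rfl fun x _ => ?_
    rw [← AddChar.map_add_eq_mul, ← AddChar.map_add_eq_mul]
    simp only [f, Submodule.coe_add, Submodule.coe_sub, Submodule.coe_smul, map_add, map_sub,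
      map_smul, LinearMap.add_apply, LinearMap.sub_apply, LinearMap.smul_apply, smul_eq_mul]
    congr 1
    linear_combination (B x.1 x.1 + B x.2 x.2) * e
  rw [← e1, mul_pow, ← e2]; ring

/-- The Heisenberg group of an invariant bilinear form, extended by the acting group. -/
@[ext] structure Hz (hB : ∀ g x y, B (ρ g x) (ρ g y) = B x y) where
  x : W
  a : ZMod p
  g : H

namespace Hz
variable {hB : ∀ g x y, B (ρ g x) (ρ g y) = B x y}

instance instMul : Mul (Hz hB) :=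
  ⟨fun u v => ⟨u.x + ρ u.g v.x, u.a + v.a + B u.x (ρ u.g v.x), u.g * v.g⟩⟩
instance instOne : One (Hz hB) := ⟨⟨0, 0, 1⟩⟩
instance instInv : _root_.Inv (Hz hB) := ⟨fun u => ⟨-ρ u.g⁻¹ u.x, B u.x u.x - u.a, u.g⁻¹⟩⟩

omit [Fintype H] [Fintype W]

theorem mul_def (u v : Hz hB) :
    u * v = ⟨u.x + ρ u.g v.x, u.a + v.a + B u.x (ρ u.g v.x), u.g * v.g⟩ := rfl
theorem one_def : (1 : Hz hB) = ⟨0, 0, 1⟩ := rfl
theorem inv_def (u : Hz hB) : u⁻¹ = ⟨-ρ u.g⁻¹ u.x, B u.x u.x - u.a, u.g⁻¹⟩ := rfl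

instance instGroup : Group (Hz hB) := Group.ofLeftAxioms
  (fun u v w => by ext <;> simp [mul_def, mul_assoc, add_assoc, hB]; ring)
  (fun u => by ext <;> simp [mul_def, one_def])
  (fun u => by ext <;> simp [mul_def, one_def, inv_def, hB])

/-- projection to the acting group -/
def pj : Hz hB →* H := MonoidHom.mk' g fun _ _ => rfl

/-- coordinates -/
def eqv : Hz hB ≃ W × ZMod p × H :=
  ⟨fun u => (u.x, u.a, u.g), fun u => ⟨u.1, u.2.1, u.2.2⟩, fun _ => rfl, fun _ => rfl⟩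

/-- coordinates on the Heisenberg group -/
def eqk : W × ZMod p ≃ (pj (hB := hB)).ker :=
  ⟨fun u => ⟨⟨u.1, u.2, 1⟩, rfl⟩, fun u => (u.1.x, u.1.a), fun _ => rfl,
    fun u => Subtype.ext (Hz.ext rfl rfl u.2.symm)⟩

theorem cen (t : ZMod p) : (⟨0, t, 1⟩ : Hz hB) ∈ center (Hz hB) := mem_center_iff.2 fun u => by
  ext <;> simp [mul_def, add_comm]

theorem cen_pow (t : ZMod p) (n : ℕ) : (⟨0, t, 1⟩ : Hz hB) ^ n = ⟨0, n * t, 1⟩ := by
  induction n with
  | zero => simp [one_def]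
  | succ n ih => rw [pow_succ, ih]; ext <;> simp [mul_def, add_mul]

end Hz

theorem van_of_cen {K : Type*} [Group K] [Finite K] {χ : K → ℂ} (hχ : IsIrrCharacter K χ)
    {u w z : K} (hz : z ∈ center K) (h1 : z ∉ charKer χ) (e : u * w = z * (w * u)) :
    χ (u * w) = 0 := by
  obtain ⟨c, -, hc⟩ := hχ.center_le_charCenter hz
  have := hχ.isCharacter.apply_mul_comm u w
  by_contra h
  refine h1 fun x => ?_
  rw [hc, mul_right_cancel₀ h (show c * χ (u * w) = 1 * _ by rw [this, ← hc, ← e, this, one_mul]),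
    one_mul]

theorem sq_heis (hc : ¬ p ∣ Nat.card H) (hB : ∀ g x y, B (ρ g x) (ρ g y) = B x y)
    (hn : ∀ x, (∀ y, B x y = B y x) → x = 0) : ∃ η ∈ CI H, ∀ h, Sq (η h) (Fx ρ h) := by
  have := Fintype.ofEquiv _ (Hz.eqv (hB := hB)).symm
  obtain ⟨E, hE⟩ : ∃ E, (Hz.pj (hB := hB)).ker = E := ⟨_, rfl⟩
  have : E.Normal := hE ▸ inferInstance
  have := Fintype.ofFinite E
  have mE : ∀ x a, (⟨x, a, 1⟩ : Hz hB) ∈ E := fun x a => hE ▸ rfl
  obtain ⟨θ, t1, t2⟩ := exists_irr_not_mem_charKer (g := (⟨⟨0, 1, 1⟩, mE 0 1⟩ : E))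
    fun e => one_ne_zero (congrArg (fun u : E => u.1.a) e)
  have t3 : ∀ t, t ≠ 0 → (⟨⟨0, t, 1⟩, mE 0 t⟩ : E) ∉ charKer θ := fun t ht e => t2 (by
    convert pow_mem e (t⁻¹).val using 1
    exact Subtype.ext (by simp [Hz.cen_pow, ht]))
  have t4 : ∀ e : E, e.1.x ≠ 0 → θ e = 0 := fun e he => by
    obtain ⟨y, hy⟩ := not_forall.1 (mt (hn _) he)
    have eg : e.1.g = 1 := hE.ge e.2
    have := van_of_cen t1 (u := e * ⟨⟨y, 0, 1⟩, mE y 0⟩⁻¹) (w := ⟨⟨y, 0, 1⟩, mE y 0⟩)
      (mem_center_iff.2 fun u => Subtype.ext (mem_center_iff.1 (Hz.cen _) u.1))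
      (t3 _ (sub_ne_zero.2 hy)) (Subtype.ext (by
        ext <;> simp [Hz.mul_def, Hz.inv_def, eg]; ring))
    rwa [inv_mul_cancel_right] at this
  have c1 : Nat.card E = Nat.card W * p := by
    rw [← hE, ← Nat.card_congr Hz.eqk, Nat.card_prod, Nat.card_zmod]
  have c2 : E.index = Nat.card H := by
    rw [← hE, index_ker, MonoidHom.range_eq_top.2 fun g => ⟨⟨0, 0, g⟩, rfl⟩, card_top]
  have c3 : (Nat.card E).Coprime (Nat.card H) := by
    rw [c1, Module.natCard_eq_pow_finrank (K := ZMod p), Nat.card_zmod, ← pow_succ]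
    exact ((Nat.Prime.coprime_iff_not_dvd hp.out).2 hc).pow_left _
  obtain ⟨χ, x1, x2⟩ := ext_of_coprime_card t1 (fun g => funext fun e => by
    have : ∀ e : E, e.1.x = 0 → ∀ g, g * e.1 * g⁻¹ = e := fun e he g => by
      rw [mem_center_iff.1 (show e.1 ∈ center _ from
        (Hz.ext he rfl (hE.ge e.2) : e.1 = ⟨0, e.1.a, 1⟩) ▸ Hz.cen _) g, mul_inv_cancel_right]
    by_cases he : e.1.x = 0
    · exact congrArg θ (Subtype.ext (this e he g))
    · rw [t4 e he, cj_apply, t4]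
      intro e'
      have e'' := this _ e' g⁻¹
      simp only [inv_inv, mul_assoc, inv_mul_cancel, inv_mul_cancel_left, mul_one] at e'' e'
      exact he (e'' ▸ e')) (c2 ▸ c3)
  have x3 : IsIrrCharacter E fun n : E => χ n := funext x2 ▸ t1
  let ι : H →* Hz hB := MonoidHom.mk' (fun g => ⟨0, 0, g⟩) fun a b => by ext <;> simp [Hz.mul_def]
  refine ⟨_, mem_CI_of_char (x1.isCharacter.comp ι), fun h => ?_⟩
  have n1 : ∀ x a, ‖χ ⟨x, a, h⟩‖ = ‖χ ⟨x, 0, h⟩‖ := fun x a => by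
    obtain ⟨c, -, e⟩ := x1.center_le_charCenter (Hz.cen a)
    have e1 := x1.mem_charCenter.1 (x1.center_le_charCenter (Hz.cen a))
    rw [← mul_one (⟨0, a, 1⟩ : Hz hB), e, norm_mul, mul_eq_right₀ (by
      simpa using x1.apply_one_ne_zero)] at e1
    rw [show (⟨x, a, h⟩ : Hz hB) = ⟨0, a, 1⟩ * ⟨x, 0, h⟩ by ext <;> simp [Hz.mul_def], e, norm_mul, e1,
      one_mul]
  have n2 : ∀ x y, ‖χ ⟨x + (y - ρ h y), 0, h⟩‖ = ‖χ ⟨x, 0, h⟩‖ := fun x y => by
    have := congrArg (‖·‖) (x1.isCharacter.apply_mul_comm ⟨y, 0, 1⟩ ⟨x - ρ h y, 0, h⟩)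
    simp only [Hz.mul_def, one_mul, mul_one] at this
    rw [n1, n1 (_ + ρ h y)] at this
    convert this using 4 <;> simp; abel
  let D := (LinearMap.id - ρ h).toAddMonoidHom
  have n3 : ∀ x, ‖χ ⟨x, 0, h⟩‖ ^ 2 = if x ∈ D.range then ‖χ (ι h)‖ ^ 2 else 0 := fun x => by
    split_ifs with e
    · obtain ⟨y, rfl⟩ := e
      exact congrArg (· ^ 2) ((by simp [D] : _ = _).trans (n2 0 y))
    obtain ⟨c, y, h1, rfl⟩ := exists_proj (ρ := ρ) hc h x
    obtain ⟨u, h2, h3⟩ : ∃ u, ρ h u = u ∧ B c u ≠ B u c := by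
      by_contra! e'
      refine e ⟨y, ?_⟩
      rw [hn c fun x => sub_eq_zero.1 (nondeg_fix (B := B - B.flip) hc (fun g x y => by simp [hB]) h1
        (fun u hu => sub_eq_zero.2 (e' u hu)) x)]
      simp [D]
    have := van_of_cen x1 (u := ⟨c, 0, h⟩ * ⟨u, 0, 1⟩⁻¹) (w := ⟨u, 0, 1⟩) (Hz.cen _)
      (fun e => t3 _ (sub_ne_zero.2 h3) fun x => by rw [← x2, ← x2]; exact e _) (by
        ext <;> simp [Hz.mul_def, Hz.inv_def, h2]; ring)
    rw [inv_mul_cancel_right] at this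
    rw [n2, this]; simp
  have n4 : ‖χ (ι h)‖ ^ 2 = Fx ρ h := by
    have e1 := H8.sum_coset_self x1.isCharacter x3 (ι h)
    subst hE
    rw [← Hz.eqk.sum_comp, Fintype.sum_prod_type] at e1
    simp only [Complex.mul_conj', ← Complex.ofReal_pow, ← Complex.ofReal_sum] at e1
    have e2 : ∀ x a, ((Hz.eqk (x, a)).1 * ι h : Hz hB) = ⟨x, a, h⟩ := fun x a => by
      ext <;> simp [Hz.mul_def, Hz.eqk, ι]
    have e3 := D.ker.card_mul_index
    rw [AddSubgroup.index_ker, show Nat.card D.ker = Fx ρ h from Nat.card_congr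
      (Equiv.subtypeEquivRight fun x => by simp [D, sub_eq_zero, @eq_comm _ x])] at e3
    simp only [e2, n1 _ _, n3, sum_const, card_univ, ZMod.card, nsmul_eq_mul, ← mul_sum,
      ← sum_filter, c1, ← e3] at e1
    rw [← Fintype.card_subtype, ← Nat.card_eq_fintype_card] at e1
    have e4 : (0 : ℝ) < p * Nat.card D.range := by
      have := hp.out.pos; have := Nat.card_pos (α := D.range); positivity
    refine mul_left_cancel₀ e4.ne' ?_
    have : (p * (Nat.card D.range * ‖χ (ι h)‖ ^ 2) : ℝ) = Fx ρ h * Nat.card D.range * p := by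
      exact_mod_cast e1
    linarith
  obtain ⟨k, k1, k2⟩ := Nat.chineseRemainder c3 1 (Nat.card H - 1)
  have k3 : k.Coprime (Nat.card (Hz hB)) := by
    rw [← E.card_mul_index, c2]
    exact Nat.Coprime.mul_right (k1.gcd_eq.trans (by simp))
      (k2.gcd_eq.trans ((Nat.coprime_self_sub_left Nat.card_pos).2 (by simp)))
  obtain ⟨l, -, hl⟩ := exists_hom_of_ext x1.isCharacter (x1.pow_arg k3).isCharacter x3 fun n => by
    rw [← Subgroup.coe_pow, pow_eq_pow_mod k pow_card_eq_one', k1, ← pow_eq_pow_mod 1 pow_card_eq_one', pow_one]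
  have e1 := congrFun hl (ι h)
  rw [← map_pow, pow_eq_pow_mod k pow_card_eq_one', k2, ← pow_eq_pow_mod _ pow_card_eq_one',
    pow_sub _ Nat.card_pos, pow_card_eq_one', pow_one, one_mul, map_inv, x1.apply_inv] at e1
  refine ⟨Nat.card H, Nat.card_pos, ?_⟩
  rw [← Complex.ofReal_natCast, ← n4, Complex.ofReal_pow, ← Complex.mul_conj', e1, Pi.mul_apply,
    mul_left_comm, mul_pow, ← Units.val_pow_eq_pow_val, ← map_pow, ← map_pow, pow_card_eq_one']
  simp [pow_mul, sq]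

theorem sq_alt (hc : ¬ p ∣ Nat.card H) (hB : ∀ g x y, B (ρ g x) (ρ g y) = B x y)
    (ha : ∀ x, B x x = 0) (hn : ∀ x, (∀ y, B x y = 0) → x = 0) :
    ∃ η ∈ CI H, ∀ h, Sq (η h) (Fx ρ h) := by
  let b := Module.finBasis (ZMod p) W
  let A := b.constr (ZMod p) fun i => b.constr (ZMod p) fun j => if i < j then B (b i) (b j) else 0
  have h1 : A - A.flip = B := LinearMap.ext_basis b b fun i j => by
    have := LinearMap.IsAlt.neg (B := B) ha (b i) (b j)
    simp only [A, LinearMap.sub_apply, LinearMap.flip_apply, Module.Basis.constr_basis]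
    rcases lt_trichotomy i j with e | rfl | e
    · simp [e, e.not_gt]
    · simp [ha]
    · simp [e, e.not_gt, ← this]
  refine sq_heis (B := ∑ g, A.compl₁₂ (ρ g) (ρ g)) hc (fun g x y => ?_) fun x h => hn x fun y => ?_
  · simp only [LinearMap.sum_apply, LinearMap.compl₁₂_apply]
    rw [← Equiv.sum_comp (Equiv.mulRight g) fun k => A (ρ k x) (ρ k y)]
    simp
  · have := sub_eq_zero.2 (h y)
    simp only [LinearMap.sum_apply, LinearMap.compl₁₂_apply, ← sum_sub_distrib] at this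
    rw [sum_congr rfl fun g _ => (show _ = B x y by rw [← hB g, ← h1]; rfl), sum_const, card_univ,
      nsmul_eq_mul, ← Nat.card_eq_fintype_card] at this
    exact (mul_eq_zero.1 this).resolve_left (mt (ZMod.natCast_eq_zero_iff _ _).1 hc)

theorem sq_dual (hc : ¬ p ∣ Nat.card H) (hB : ∀ g x y, B (ρ g x) (ρ g y) = B x y)
    (hn : ∀ x, (∀ y, B x y = 0) → x = 0) : ∃ η ∈ CI H, ∀ h, Sq (η h) (Fx ρ h) := by
  obtain ⟨U, V, h0, hU, hV, ⟨A, a1, a2, a3⟩, ⟨S, s1, s2, s3⟩, h2⟩ := Cfsg.Agent.S4966.result p hc ρ B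
    (LinearMap.BilinForm.Nondegenerate.ofSeparatingLeft hn) hB
  obtain ⟨η, e1, e2⟩ := sq_alt (ρ := ρ.subrepresentation U hU) (B := A.compl₁₂ U.subtype U.subtype) hc
    (fun g x y => a2 g x x.2 y y.2) (fun x => a1 x)
    fun x h => Subtype.ext (a3 x x.2 fun y hy => h ⟨y, hy⟩)
  obtain ⟨η', e3, e4⟩ : ∃ η ∈ CI H, ∀ h, Sq (η h) (Fx (ρ.subrepresentation V hV) h) := by
    by_cases e : p = 2
    · have : Sq (√(Nat.card V) : ℝ) (Nat.card V) := ⟨1, one_pos, by
        rw [mul_one, pow_one, ← Complex.ofReal_pow, Real.sq_sqrt (by positivity)]; simp⟩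
      refine ⟨_, smul_mem_CI this.isIntegral (one_mem _), fun h => ?_⟩
      rw [Fx, Nat.card_congr (Equiv.subtypeUnivEquiv (p := fun x => ρ.subrepresentation V hV h x = x)
        fun x : V => Subtype.ext (h2 e h x x.2))]
      simpa using this
    · exact sq_symm (B := S.compl₁₂ V.subtype V.subtype) e hc (fun g x y => s2 g x x.2 y y.2)
        (fun x y => s1 x y) fun x h => Subtype.ext (s3 x x.2 fun y hy => h ⟨y, hy⟩)
  refine ⟨_, mul_mem e1 e3, fun h => ?_⟩
  suffices Fx ρ h = _ from this ▸ (e2 h).mul (e4 h)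
  rw [Fx, Fx, Fx, ← Nat.card_prod]
  refine Nat.card_congr (((U.prodEquivOfIsCompl V h0).toEquiv.subtypeEquiv fun x => ?_).symm.trans
    Equiv.subtypeProdEquivProd)
  rw [← Prod.ext_iff (x := (_, _)), ← (U.prodEquivOfIsCompl V h0).injective.eq_iff]
  simp [Representation.subrepresentation]

end H7
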